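import Cfsg.Agent.H5.QdFree
import Cfsg.Agent.H5.LLem
import Cfsg.Agent.H18.Agemo

/-! A pair of quadratic elements: the Borel subgroup of `SL(2,p)` fixing a prescribed line. -/

set_option autoImplicit false
set_option linter.unusedSectionVars false
set_option linter.unusedVariables false

namespace Cfsg.Agent.H4F
open Subgroup Cfsg.Agent.H22 Cfsg.Agent.H5b Polynomial
open Cfsg.Agent.H18 hiding cj mem_cj conj_mem_cj conj_mem_cj_iff cj_le_iff cj_cj cj_one cj_inv_cj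
  cj_cj_inv cj_mono cj_inf cj_sup cj_eq_iff cj_eq_of_mem cj_eq_of_normal cj_top card_cj isPGroup_cj
open scoped commutatorElement MatrixGroups Matrix

variable {p : ℕ} [hp : Fact p.Prime]

theorem exists_borel (hp2 : p ≠ 2) {K : Type*} [Field K] [Finite K] [Algebra (ZMod p) K] {s : K}
    (hs : s ≠ 0) {R : Subgroup SL(2, K)} (h1 : upT s ∈ R) (h2 : loT 1 ∈ R) :
    ∃ g : GL (Fin 2) K, g.1 1 0 = 0 ∧ ∀ N : SL(2, ZMod p), ∃ m ∈ R,
      N.1.map (algebraMap (ZMod p) K) = g.1 * m.1 * (g⁻¹).1 := by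
  have : CharP K p := charP_of_injective_algebraMap (algebraMap (ZMod p) K).injective p
  obtain ⟨L', g, hg⟩ := H10.exists_SL2_le hp2 (one_lt_card_sylow hs h1 h2)
  have base : ∀ N : SL(2, ZMod p), ∃ m ∈ R,
      H10.conjSL g m = Matrix.SpecialLinearGroup.map (algebraMap (ZMod p) K) N := fun N => by
    refine hg ⟨Matrix.SpecialLinearGroup.map (ZMod.castHom (dvd_refl p) L') N, ?_⟩
    have : L'.subtype.comp (ZMod.castHom (dvd_refl p) L') = algebraMap (ZMod p) K :=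
      Subsingleton.elim _ _
    rw [← this]; rfl
  have base' : ∀ (N : SL(2, ZMod p)) m,
      H10.conjSL g m = Matrix.SpecialLinearGroup.map (algebraMap (ZMod p) K) N →
      N.1.map (algebraMap (ZMod p) K) = g.1 * m.1 * (g⁻¹).1 := fun N m h => by
    have h3 := congrArg (fun x => (Matrix.SpecialLinearGroup.toGL x).1) h
    simp only [H10.toGL_conjSL] at h3
    exact h3.symm
  obtain ⟨u, hu, e⟩ := base (upT 1)
  have hup : u ^ p = 1 := (H10.conjSL g).injective (by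
    rw [map_pow, e, ← map_pow, upT_pow, CharP.cast_eq_zero, zero_mul, upT_zero, map_one, map_one])
  have hsp : upT s ^ p = 1 := by rw [upT_pow, CharP.cast_eq_zero, zero_mul, upT_zero]
  obtain ⟨T, hT, h3⟩ := exists_sylIn_ge (isPGroup_zpowers_of_pow hsp) (zpowers_le.2 h1)
  obtain ⟨r, hr, h4⟩ := syl_exists_cj_le hT (zpowers_le.2 hu) (isPGroup_zpowers_of_pow hup)
  have hx : r * u * r⁻¹ ∈ T := h4 (conj_mem_cj (mem_zpowers u))
  have key : ∀ (N : SL(2, ZMod p)) (m : SL(2, K)),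
      N.1.map (algebraMap (ZMod p) K) = g.1 * m.1 * (g⁻¹).1 →
      N.1.map (algebraMap (ZMod p) K) = (g * (Matrix.SpecialLinearGroup.toGL r)⁻¹).1 * (r * m * r⁻¹).1 *
        ((g * (Matrix.SpecialLinearGroup.toGL r)⁻¹)⁻¹).1 := fun N m h => by
    rw [h]
    change (g * Matrix.SpecialLinearGroup.toGL m * g⁻¹).1 = ((g * (Matrix.SpecialLinearGroup.toGL r)⁻¹) *
      Matrix.SpecialLinearGroup.toGL (r * m * r⁻¹) * (g * (Matrix.SpecialLinearGroup.toGL r)⁻¹)⁻¹).1
    rw [map_mul, map_mul, map_inv]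
    congr 1; group
  refine ⟨g * (Matrix.SpecialLinearGroup.toGL r)⁻¹, ?_, fun N => ?_⟩
  · have h5 := key _ _ (base' _ _ e)
    generalize g * (Matrix.SpecialLinearGroup.toGL r)⁻¹ = g' at h5
    generalize r * u * r⁻¹ = x at hx h5
    obtain ⟨k, hk⟩ := pgrp_iff.1 hT.isP _ hx
    obtain ⟨l, hl⟩ := pgrp_iff.1 hT.isP _ (mul_mem (h3 (mem_zpowers _)) hx)
    have t1 := trace_eq_two_of_pow hk
    have t2 := trace_eq_two_of_pow hl
    rw [Matrix.SpecialLinearGroup.coe_mul, coe_upT] at t2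
    simp only [Matrix.trace_fin_two, Matrix.mul_apply, Fin.sum_univ_two] at t1 t2
    simp at t2
    have h6 : x.1 1 0 = 0 := (mul_eq_zero.1 (show s * x.1 1 0 = 0 by
      linear_combination t2 - t1)).resolve_left hs
    have h7 : (upT (1 : ZMod p)).1.map (algebraMap (ZMod p) K) * g'.1 = g'.1 * x.1 := by
      rw [h5, mul_assoc, Units.inv_mul, mul_one]
    have h8 := congrFun (congrFun h7 0) 0
    have h9 := congrFun (congrFun h7 1) 0
    simp [Matrix.mul_apply, Fin.sum_univ_two, coe_upT, h6] at h8 h9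
    by_contra h10
    have h11 : x.1 0 0 = 1 := by
      have := mul_left_cancel₀ h10 ((mul_one _).trans h9)
      exact this.symm
    rw [h11] at h8
    exact h10 (by linear_combination h8)
  · obtain ⟨m, hm, e⟩ := base N
    exact ⟨r * m * r⁻¹, mul_mem (mul_mem hr hm) (inv_mem hr), key _ _ (base' _ _ e)⟩

section lin

variable {F : Type*} [Field F] {W : Type*} [AddCommGroup W] [Module F W]

theorem exists_plane_at {α β : Module.End F W} (hα : α * α = 0) (hβ : β * β = 0)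
    {K : Type*} [Field K] [Algebra F K] (π : F[X] →ₐ[F] K) (hπ : Function.Surjective π)
    (hs : π X ≠ 0) {e : W} (he0 : e ≠ 0) (heα : α e = 0)
    (he : ∀ q, π q = 0 → aeval (α * β + β * α) q e = 0) :
    ∃ ι : (Fin 2 → K) →ₗ[F] W, Function.Injective ι ∧ (∀ u, α (ι u) = ι ![π X * u 1, 0]) ∧
      (∀ u, β (ι u) = ι ![0, u 0]) ∧ ι ![1, 0] = e := by
  set σ := α * β + β * α with hσ
  have cα := commute_aeval (F := F) (commute_sigma_left (β := β) hα)
  rw [← hσ] at cα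
  obtain ⟨τ, hτ⟩ := π.toLinearMap.exists_rightInverse_of_surjective
    (LinearMap.range_eq_top.mpr hπ)
  have hτ' : ∀ x, π (τ x) = x := fun x => LinearMap.congr_fun hτ x
  let φ : K →ₗ[F] W := (LinearMap.applyₗ e).comp ((aeval σ).toLinearMap.comp τ)
  have hφ : ∀ q, φ (π q) = aeval σ q e := fun q => by
    have := he (τ (π q) - q) (by rw [map_sub, hτ', sub_self])
    rw [map_sub, LinearMap.sub_apply, sub_eq_zero] at this
    exact this
  have hφα : ∀ x, α (φ x) = 0 := fun x => by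
    obtain ⟨q, rfl⟩ := hπ x
    rw [hφ, ← Module.End.mul_apply, (cα q).eq, Module.End.mul_apply, heα, map_zero]
  have hφσ : ∀ x, α (β (φ x)) = φ (π X * x) := fun x => by
    have h1 : σ (φ x) = φ (π X * x) := by
      obtain ⟨q, rfl⟩ := hπ x
      rw [← map_mul, hφ, hφ, map_mul, aeval_X, Module.End.mul_apply]
    rw [← h1, hσ, LinearMap.add_apply, Module.End.mul_apply, Module.End.mul_apply, hφα, map_zero,
      add_zero]
  have hφi : ∀ x, φ x = 0 → x = 0 := fun x hx => by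
    by_contra h0
    obtain ⟨q, rfl⟩ := hπ x
    obtain ⟨r, hr⟩ := hπ (π q)⁻¹
    have h1 := hφ (r * q)
    rw [map_mul, hr, inv_mul_cancel₀ h0, ← map_one π, hφ, map_one, map_mul, Module.End.mul_apply,
      ← hφ, hx, map_zero] at h1
    exact he0 h1
  have hββ : ∀ w, β (β w) = 0 := fun w => by rw [← Module.End.mul_apply, hβ]; rfl
  let ι : (Fin 2 → K) →ₗ[F] W :=
    φ.comp (LinearMap.proj 0) + (β.comp φ).comp (LinearMap.proj 1)
  have hι : ∀ u, ι u = φ (u 0) + β (φ (u 1)) := fun u => rfl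
  refine ⟨ι, (injective_iff_map_eq_zero _).mpr fun u hu => ?_, fun u => ?_, fun u => ?_, ?_⟩
  · have h1 := congrArg α hu
    rw [hι, map_add, hφα, hφσ, zero_add, map_zero] at h1
    have h2 : u 1 = 0 := (mul_eq_zero.mp (hφi _ h1)).resolve_left hs
    rw [hι, h2, map_zero, map_zero, add_zero] at hu
    ext i; fin_cases i
    · exact hφi _ hu
    · exact h2
  · rw [hι, hι, map_add, hφα, hφσ]; simp
  · rw [hι, hι, map_add, hββ]; simp
  · have := hφ 1
    rw [map_one π, map_one (aeval σ)] at this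
    rw [hι]; simpa using this

theorem exists_irred_ann (σ : Module.End F W) (q : F[X]) : q ≠ 0 → ∀ w : W, w ≠ 0 → aeval σ q w = 0 →
    ∃ f k : F[X], Irreducible f ∧ aeval σ k w ≠ 0 ∧ aeval σ f (aeval σ k w) = 0 := by
  induction q using WfDvdMonoid.induction_on_irreducible with
  | zero => exact fun h => absurd rfl h
  | unit u hu =>
    intro _ w hw h
    obtain ⟨v, hv⟩ := hu.exists_left_inv
    refine absurd ?_ hw
    have := congrArg (aeval σ v) h
    rwa [← Module.End.mul_apply, ← map_mul, hv, map_one, map_zero] at this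
  | mul r f hr hf ih =>
    intro _ w hw h
    by_cases h1 : aeval σ r w = 0
    · exact ih hr w hw h1
    · exact ⟨f, r, hf, h1, by rwa [← Module.End.mul_apply, ← map_mul]⟩

end lin

variable {W : Type*} [AddCommGroup W] [Module (ZMod p) W] [Finite W] {H : Type*} [Group H]
  {ρ : H →* Module.End (ZMod p) W} {a b : H}

theorem plane_borel (hp2 : p ≠ 2) (ha : Quad ρ a) (hb : Quad ρ b) {e : W} (he0 : e ≠ 0)
    (heα : (ρ a - 1) e = 0) {f : (ZMod p)[X]} (hf : Irreducible f)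
    (hfe : aeval ((ρ a - 1) * (ρ b - 1) + (ρ b - 1) * (ρ a - 1)) f e = 0)
    (hσ : ((ρ a - 1) * (ρ b - 1) + (ρ b - 1) * (ρ a - 1)) e ≠ 0) {M : Subgroup H}
    (hM : ∀ K : Subgroup H, a ∈ K → K ≤ closure {a, b} → b ∉ K → K ≤ M) :
    ∃ κ : (Fin 2 → ZMod p) →+ W, Function.Injective κ ∧ ∀ N : SL(2, ZMod p), N.1 1 0 = 0 →
      ∃ h ∈ M ⊓ closure {a, b}, (h, N) ∈ planeGraph ρ κ ∧ ρ h e = N.1 0 0 • e := by
  have : Fact (Irreducible f) := ⟨hf⟩
  have hker : ∀ q, AdjoinRoot.mkₐ f q = 0 →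
      aeval ((ρ a - 1) * (ρ b - 1) + (ρ b - 1) * (ρ a - 1)) q e = 0 := fun q hq => by
    obtain ⟨r, rfl⟩ := AdjoinRoot.mk_eq_zero.mp hq
    rw [mul_comm, map_mul, Module.End.mul_apply, hfe, map_zero]
  have hr : AdjoinRoot.mkₐ f X ≠ 0 := fun h => hσ (by simpa using hker X h)
  obtain ⟨ι, hι, h1, h2, h3⟩ := exists_plane_at ha hb (AdjoinRoot.mkₐ f) AdjoinRoot.mk_surjective hr
    he0 heα hker
  set K := AdjoinRoot f
  have : Finite K := by
    have := Finite.of_injective ι hι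
    exact Finite.of_injective (fun x : K => fun _ : Fin 2 => x) fun x y h => congrFun h 0
  obtain ⟨φ, hφ, h4, h5⟩ := exists_hom_of_plane hι h1 h2
  obtain ⟨g, hg0, hg⟩ := exists_borel hp2 hr (R := φ.range) ⟨_, h4⟩ ⟨_, h5⟩
  let Bo : Subgroup SL(2, K) :=
    { carrier := {m | m.1 1 0 = 0}
      one_mem' := by simp
      mul_mem' := fun {x y} hx hy => by
        have hx' : x.1 1 0 = 0 := hx
        have hy' : y.1 1 0 = 0 := hy
        show (x * y).1 1 0 = 0
        rw [Matrix.SpecialLinearGroup.coe_mul]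
        simp [Matrix.mul_apply, Fin.sum_univ_two, hx', hy']
      inv_mem' := fun {x} hx => by
        have hx' : x.1 1 0 = 0 := hx
        show (x⁻¹).1 1 0 = 0
        rw [Matrix.SpecialLinearGroup.coe_inv, Matrix.adjugate_fin_two]
        simp [hx'] }
  have hB : (Bo.comap φ).map (closure {a, b} : Subgroup H).subtype ≤ M := by
    refine hM _ ⟨⟨a, subset_closure (by simp)⟩, ?_, rfl⟩ (map_subtype_le _) ?_
    · show (φ _).1 1 0 = 0
      rw [h4]; rfl
    · rintro ⟨x, hx, e⟩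
      have hx' : (φ x).1 1 0 = 0 := hx
      rw [show x = ⟨b, subset_closure (by simp)⟩ from Subtype.ext e, h5] at hx'
      simp [coe_loT] at hx'
  let c : (Fin 2 → ZMod p) →+ (Fin 2 → K) := AddMonoidHom.compLeft (algebraMap (ZMod p) K) (Fin 2)
  have hc : ∀ u, c u = algebraMap (ZMod p) K ∘ u := fun _ => rfl
  let d : (Fin 2 → K) →+ (Fin 2 → K) := (Matrix.mulVecLin (g⁻¹).1).toAddMonoidHom
  have hd : ∀ u, d u = (g⁻¹).1 *ᵥ u := fun _ => rfl
  refine ⟨(ι.toAddMonoidHom.comp d).comp c, ?_, fun N hN => ?_⟩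
  · refine (hι.comp fun u v h => ?_).comp fun u v h => ?_
    · have := congrArg (g.1 *ᵥ ·) h
      simp only [hd, Matrix.mulVec_mulVec, Units.mul_inv, Matrix.one_mulVec] at this
      exact this
    · ext i; exact (algebraMap (ZMod p) K).injective (congrFun h i)
  obtain ⟨_, ⟨h, rfl⟩, h6⟩ := hg N
  have h7 : N.1.map (algebraMap (ZMod p) K) * g.1 = g.1 * (φ h).1 := by
    rw [h6, mul_assoc, Units.inv_mul, mul_one]
  have hdet : g.1 0 0 * g.1 1 1 ≠ 0 := by
    have := g.det_ne_zero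
    rwa [Matrix.det_fin_two, hg0, mul_zero, sub_zero] at this
  have h8 := congrFun (congrFun h7 1) 0
  have h9 := congrFun (congrFun h7 0) 0
  simp only [Matrix.mul_apply, Fin.sum_univ_two, Matrix.map_apply, hN, hg0, map_zero, mul_zero,
    zero_mul, add_zero, zero_add] at h8 h9
  have h10 : (φ h).1 1 0 = 0 := (mul_eq_zero.1 h8.symm).resolve_left (right_ne_zero_of_mul hdet)
  rw [h10, mul_zero, add_zero, mul_comm] at h9
  have h11 := mul_left_cancel₀ (left_ne_zero_of_mul hdet) h9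
  refine ⟨h, ⟨hB ⟨h, h10, rfl⟩, h.2⟩, fun u => ?_, ?_⟩
  · change ρ h (ι (d (c u))) = ι (d (c (N.1 *ᵥ u)))
    rw [mem_planeGraph.mp (hφ h), hd, hd, hc, hc]
    congr 1
    have h12 : algebraMap (ZMod p) K ∘ (N.1 *ᵥ u) =
        (N.1.map (algebraMap (ZMod p) K)) *ᵥ (algebraMap (ZMod p) K ∘ u) := by
      ext i; exact RingHom.map_mulVec _ _ _ i
    rw [h12, h6, Matrix.mulVec_mulVec, Matrix.mulVec_mulVec, ← mul_assoc, ← mul_assoc,
      Units.inv_mul, one_mul]
  · rw [← h3, mem_planeGraph.mp (hφ h), ← map_smul]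
    congr 1
    ext i; fin_cases i
    · simp [Matrix.mulVec, dotProduct, Fin.sum_univ_two, ← h11, Algebra.smul_def]
      rfl
    · simp [Matrix.mulVec, dotProduct, Fin.sum_univ_two, h10]

theorem commute_sigma (ha : Quad ρ a) (hb : Quad ρ b) {g : H} (hg : g ∈ closure {a, b}) :
    Commute (ρ g) ((ρ a - 1) * (ρ b - 1) + (ρ b - 1) * (ρ a - 1)) := by
  induction hg using closure_induction with
  | mem x hx =>
    rcases hx with rfl | rfl
    · simpa using (commute_sigma_left (β := ρ b - 1) ha).add_left (Commute.one_left _)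
    · simpa using (commute_sigma_right (α := ρ a - 1) hb).add_left (Commute.one_left _)
  | one => rw [map_one]; exact Commute.one_left _
  | mul x y _ _ hx hy => rw [map_mul]; exact hx.mul_left hy
  | inv x _ hx =>
    have h1 : ρ x⁻¹ * ρ x = 1 := by rw [← map_mul, inv_mul_cancel, map_one]
    have h2 : ρ x * ρ x⁻¹ = 1 := by rw [← map_mul, mul_inv_cancel, map_one]
    show ρ x⁻¹ * _ = _ * ρ x⁻¹
    calc _ = ρ x⁻¹ * (_ * ρ x) * ρ x⁻¹ := by rw [mul_assoc, mul_assoc, h2, mul_one]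
      _ = _ := by rw [← hx.eq, ← mul_assoc, h1, one_mul]

/-- The Borel subgroup and an equivariant image of `Y` meeting its fixed line. -/
theorem module_borel (hp2 : p ≠ 2) (ha : Quad ρ a) (hb : Quad ρ b) {M : Subgroup H}
    (hM : ∀ K : Subgroup H, a ∈ K → K ≤ closure {a, b} → b ∉ K → K ≤ M) {Y : Set W}
    (hY : ∀ y ∈ Y, (ρ a - 1) y ∈ Y)
    (hnc : ∀ m : ℕ, ∃ g ∈ closure {a, b}, ∃ y ∈ Y, ρ (g ^ p ^ m) y ≠ y) :
    ∃ κ : (Fin 2 → ZMod p) →+ W, Function.Injective κ ∧ ∃ ψ : Module.End (ZMod p) W, ∃ z ∈ Y,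
      ψ z ≠ 0 ∧ ∀ N : SL(2, ZMod p), N.1 1 0 = 0 → ∃ h ∈ M, (h, N) ∈ planeGraph ρ κ ∧
        Commute (ρ h) ψ ∧ ρ h (ψ z) = N.1 0 0 • ψ z := by
  set σ := (ρ a - 1) * (ρ b - 1) + (ρ b - 1) * (ρ a - 1) with hσ
  obtain ⟨n, hn⟩ := Filter.eventually_atTop.1 (Module.End.eventually_disjoint_ker_pow_range_pow σ)
  have dis : ∀ w, (σ ^ (n + 1)) ((σ ^ (n + 1)) w) = 0 → (σ ^ (n + 1)) w = 0 := fun w hw =>
    (Submodule.disjoint_def.1 (hn (n + 1) (Nat.le_succ n))) _ hw ⟨w, rfl⟩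
  have cα : Commute (ρ a - 1) σ := commute_sigma_left ha
  obtain ⟨y, hy, h1⟩ : ∃ y ∈ Y, (σ ^ (n + 1)) y ≠ 0 := by
    by_contra h1
    push Not at h1
    obtain ⟨g, hg, y, hy, h2⟩ := hnc (2 * (n + 1) + 1)
    have h3 : ∀ k w, ((ρ g - 1) ^ k) w ∈ wordFil (ρ a - 1) (ρ b - 1) k := fun k w => by
      induction k with
      | zero => exact Submodule.mem_top
      | succ k ih => rw [pow_succ', Module.End.mul_apply]; exact sub_mem_wordFil ha hb hg k _ ih
    obtain ⟨w, hw⟩ := wordFil_le_pow ha hb (n + 1) (h3 _ y)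
    have h4 : Commute (ρ g - 1) σ := (commute_sigma ha hb hg).sub_left (Commute.one_left _)
    have h5 : ((ρ g - 1) ^ (2 * (n + 1) + 1)) y = 0 := by
      rw [← hw]
      refine dis w ?_
      rw [hw, ← Module.End.mul_apply, ← (h4.pow_pow _ _).eq, Module.End.mul_apply, h1 y hy, map_zero]
    have : Nontrivial W := ⟨_, _, h2⟩
    have : CharP (Module.End (ZMod p) W) p := (CharP.charP_iff_prime_eq_zero hp.out).mpr (by
      rw [← map_natCast (algebraMap (ZMod p) (Module.End (ZMod p) W)), ZMod.natCast_self,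
        _root_.map_zero])
    refine h2 ?_
    obtain ⟨c, hc⟩ := Nat.exists_eq_add_of_le' (Nat.lt_pow_self hp.out.one_lt (n := 2 * (n + 1) + 1)).le
    have h6 : ((ρ g - 1) ^ p ^ (2 * (n + 1) + 1)) y = 0 := by
      rw [hc, pow_add, Module.End.mul_apply, h5, map_zero]
    rwa [sub_pow_char_pow_of_commute _ _ (Commute.one_right _), one_pow, LinearMap.sub_apply,
      sub_eq_zero, ← map_pow] at h6
  obtain ⟨z, hz, h2, h3⟩ : ∃ z ∈ Y, (σ ^ (n + 1)) z ≠ 0 ∧ (ρ a - 1) ((σ ^ (n + 1)) z) = 0 := by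
    by_cases h2 : (ρ a - 1) ((σ ^ (n + 1)) y) = 0
    · exact ⟨y, hy, h1, h2⟩
    have h3 : (σ ^ (n + 1)) ((ρ a - 1) y) = (ρ a - 1) ((σ ^ (n + 1)) y) := by
      rw [← Module.End.mul_apply, ← (cα.pow_right _).eq, Module.End.mul_apply]
    exact ⟨_, hY y hy, by rwa [h3], by rw [h3, ← Module.End.mul_apply, ha]; rfl⟩
  have hi : IsIntegral (ZMod p) σ := Algebra.IsIntegral.isIntegral σ
  obtain ⟨f, k, hf, h4, h5⟩ := exists_irred_ann σ _ (minpoly.ne_zero hi) _ h2
    (by rw [minpoly.aeval]; rfl)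
  have ck : Commute σ (aeval σ k) := commute_aeval (Commute.refl σ) k
  have h6 : aeval σ k ((σ ^ (n + 1)) z) = (σ ^ (n + 1)) (aeval σ k z) := by
    rw [← Module.End.mul_apply, ← (ck.pow_left _).eq, Module.End.mul_apply]
  obtain ⟨κ, hκ, h7⟩ := plane_borel hp2 ha hb h4 (by
    rw [← Module.End.mul_apply, (commute_aeval cα k).eq, Module.End.mul_apply, h3, map_zero]) hf h5
    (fun h7 => h4 (by
      rw [h6] at h7 ⊢
      exact dis _ (by rw [pow_succ, Module.End.mul_apply, ← pow_succ, h7, map_zero]))) hM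
  refine ⟨κ, hκ, aeval σ k * σ ^ (n + 1), z, hz, h4, fun N hN => ?_⟩
  obtain ⟨h, h8, h9, h10⟩ := h7 N hN
  have h11 := commute_sigma ha hb h8.2
  exact ⟨h, h8.1, h9, (commute_aeval h11 k).mul_right (h11.pow_right _), h10⟩

/-- Eigenvalues on a section of an abelian `p`-group occur on elements of order `p`. -/
theorem exists_eigen {A : Type*} [Group A] [Finite A] (hA : IsPGroup p A) (hc : ∀ x y : A, x * y = y * x)
    (τ : A →* A) (N : Subgroup A) (hN : ∀ x ∈ N, τ x ∈ N) {k : ℕ} {z : A} (hz : z ∉ N)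
    (h : τ z * (z ^ k)⁻¹ ∈ N) : ∃ y : A, y ≠ 1 ∧ y ^ p = 1 ∧ τ y = y ^ k := by
  let φ : A →* A := MonoidHom.mk' (fun x => τ x * (x ^ k)⁻¹) fun x y => by
    rw [map_mul, Commute.mul_pow (hc x y), mul_inv_rev, mul_assoc, mul_assoc, hc (y ^ k)⁻¹,
      ← mul_assoc (τ y), hc (τ y), mul_assoc]
  have hφ : ∀ x ∈ N, φ x ∈ N := fun x hx => mul_mem (hN x hx) (inv_mem (pow_mem hx k))
  have h1 : ¬ Function.Injective φ := fun h1 => by
    obtain ⟨x, hx⟩ := (Finite.injective_iff_surjective (f := fun x : N => (⟨φ x, hφ x x.2⟩ : N))).1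
      (fun x y e => Subtype.ext (h1 (congrArg Subtype.val e))) ⟨φ z, h⟩
    exact hz (h1 (congrArg Subtype.val hx) ▸ x.2)
  rw [injective_iff_map_eq_one] at h1
  push Not at h1
  obtain ⟨y, h1, h2⟩ := h1
  obtain ⟨m, hm⟩ := hA y
  obtain ⟨j, h3, h4⟩ := exists_pow_mem_of_not_mem (p := p) (Q := ⊥) (g := y) h2 (k := m) hm
  refine ⟨y ^ j, h3, h4, ?_⟩
  rw [map_pow, mul_inv_eq_one.1 h1, ← pow_mul, ← pow_mul, mul_comm]

end Cfsg.Agent.H4F
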