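import Cfsg.Agent.H4.Fp1
import Cfsg.Agent.H4.Tor2
import Cfsg.Agent.H21.Sec

/-! The Borel subgroup of `SL(2,p)` in the normalizer of an abelian subgroup: constrained groups. -/

set_option autoImplicit false
set_option linter.unusedSectionVars false
set_option linter.unusedVariables false

namespace Cfsg.Agent.H4F
open Subgroup Cfsg.Agent.H22 Cfsg.Agent.H5b
open Cfsg.Agent.H18 hiding cj mem_cj conj_mem_cj conj_mem_cj_iff cj_le_iff cj_cj cj_one cj_inv_cj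
  cj_cj_inv cj_mono cj_inf cj_sup cj_eq_iff cj_eq_of_mem cj_eq_of_normal cj_top card_cj isPGroup_cj
open scoped commutatorElement MatrixGroups Matrix

universe u

variable {G : Type u} [Group G] [Finite G] {p : ℕ} [hp : Fact p.Prime] {S M B D Y Z : Subgroup G}

/-- an element of order `p` of `Z` is conjugate in `M` to its `k`-th power -/
def GoodN (p k : ℕ) (M Z : Subgroup G) : Prop :=
  ∃ t ∈ M, ∃ y ∈ Z, y ≠ 1 ∧ y ^ p = 1 ∧ t * y * t⁻¹ = y ^ k

/-- `M` induces the Borel subgroup of `SL(2,p)` on a section of `S` -/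
def SecN (p : ℕ) (M S : Subgroup G) : Prop :=
  ∃ A ≤ S, ∃ θ : G → Fin 2 → ZMod p, (∀ a ∈ A, ∀ b ∈ A, θ (a * b) = θ a + θ b) ∧
    (∀ u, ∃ a ∈ A, θ a = u) ∧ ∀ N : SL(2, ZMod p), N.1 1 0 = 0 → ∃ g ∈ M,
      (∀ a ∈ A, g * a * g⁻¹ ∈ A) ∧ ∀ a ∈ A, θ (g * a * g⁻¹) = N.1 *ᵥ θ a

theorem exists_lData_cyc {P : Subgroup G} (h : PMin p P S M) {a : G} (ha : a ∈ S)
    (hO : a ∉ pCoreOf p P) : ∃ L, ∃ k ∈ P, LData p L ⊥ (zpowers (k * a * k⁻¹)) M := by
  obtain ⟨L, X, k, hk, -, d, -⟩ := h.exists_lData (zpowers_le.2 ha) fun e => hO (zpowers_le.1 e)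
  rw [cj_zpowers] at d
  obtain ⟨L₀, h1, ⟨h2, h3⟩, h4⟩ := exists_minimal_subgroup
    (P := fun K => zpowers (k * a * k⁻¹) ≤ K ∧ L ≤ X ⊔ K) (H := L) ⟨d.D_le, le_sup_right⟩
  exact ⟨L₀, k, hk, bot_le, h2, le_N_of_normal _ _, IsPGroup.of_bot, d.pD,
    sup_le bot_le (le_sup_right.trans d.le),
    fun e => d.ne (h3.trans (sup_le (le_sup_left.trans d.le) e)),
    fun K a1 a2 a3 => le_sup_right.trans (d.uniq (X ⊔ K) (sup_le_sup_left (le_sup_right.trans a1) _)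
      (sup_le d.Y_le (a2.trans h1)) fun e => a3 (h4 K ⟨le_sup_right.trans a1, e⟩ a2).ge),
    fun x hx => d.self x (h1 hx)⟩

theorem toolT (hp2 : p ≠ 2) (h : PMin p ⊤ S M) [B.Normal] [D.Normal] (hBS : B ≤ S) (hB : ⁅B, B⁆ ≤ D)
    (hBp : ∀ b ∈ B, b ^ p ∈ D) (hY : Y ≤ B) (ab : Y ≤ C[Y]) (hM : M ≤ N[Y])
    (hnc : ∀ g : G, (orderOf g).Coprime p → (∀ y ∈ Y, ⁅g, y⁆ ∈ D) → g ∈ M) {a : G} (ha : a ∈ S)
    (hO : a ∉ pCore p G) (hq : ⁅⁅B, zpowers a⁆, zpowers a⁆ = ⊥) :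
    (∀ k : (ZMod p)ˣ, GoodN p (k : ZMod p).val M Y) ∧ SecN p M S := by
  obtain ⟨L, k, -, d⟩ := exists_lData_cyc h ha (by rwa [pCoreOf_top])
  have hq1 := quad_cj hq (mem_N_of_normal k B)
  rw [cj_zpowers] at hq1
  generalize k * a * k⁻¹ = c at d hq1
  obtain ⟨x, hx, hxM⟩ := SetLike.not_le_iff_exists.1 d.ne
  have hcL : c ∈ L := zpowers_le.1 d.D_le
  have hL : closure {c, x * c * x⁻¹} = L := by
    refine le_antisymm ((closure_le _).2 ?_) ((d.gen hx hxM).trans ?_)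
    · rintro _ (rfl | rfl)
      exacts [hcL, mul_mem (mul_mem hx hcL) (inv_mem hx)]
    · rw [cj_zpowers]
      exact sup_le (sup_le bot_le (zpowers_le.2 (subset_closure (by simp))))
        (zpowers_le.2 (subset_closure (by simp)))
  set π := QuotientGroup.mk' D with hπ
  have hπ1 : ∀ g, π g = 1 ↔ g ∈ D := fun g => QuotientGroup.eq_one_iff g
  have : (B.map π).Normal := Normal.map inferInstance _ (QuotientGroup.mk'_surjective D)
  have eV : IsElementaryAbelian p (B.map π) := elemAb_iff.2 ⟨le_C_iff_comm.2 (by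
    rw [← map_commutator, H1.map_mk_eq_bot_iff]; exact hB), by
      rintro _ ⟨b, hb, rfl⟩
      rw [← map_pow, hπ1]; exact hBp b hb⟩
  obtain ⟨W, _, _, ⟨r⟩⟩ := exists_conjRep eV π fun g => mem_N_of_normal _ _
  have := r.finite
  let w : G → W := fun b => Function.invFun r.e (π b)
  have w1 : ∀ b ∈ B, r.e (w b) = π b := fun b hb =>
    Function.invFun_eq (r.surj _ (mem_map_of_mem π hb))
  have w2 : ∀ b ∈ B, ∀ b' ∈ B, w (b * b') = w b + w b' := fun b hb b' hb' =>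
    r.inj (by rw [r.map_add, w1 _ (mul_mem hb hb'), w1 b hb, w1 b' hb', map_mul])
  have w3 : ∀ g, ∀ b ∈ B, w (g * b * g⁻¹) = r.ρ g (w b) := fun g b hb =>
    r.inj (by rw [r.act, w1 _ (Normal.conj_mem inferInstance b hb g), w1 b hb, map_mul, map_mul, map_inv])
  have w4 : ∀ b ∈ B, w b⁻¹ = - w b := fun b hb =>
    r.inj (by rw [r.map_neg, w1 _ (inv_mem hb), w1 b hb, map_inv])
  have w5 : ∀ v, ∃ b ∈ B, w b = v := fun v => by
    obtain ⟨b, hb, e⟩ := r.mem v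
    exact ⟨b, hb, r.inj (by rw [w1 b hb, e])⟩
  have qc : Quad r.ρ c := r.quad_of (by
    rw [← MonoidHom.map_zpowers, ← map_commutator, ← map_commutator, hq1, Subgroup.map_bot])
  have cM : c ∈ M := d.le (mem_sup_right (mem_zpowers c))
  obtain ⟨κ, hκ, ψ, _, ⟨z, hz, rfl⟩, h1, h2⟩ := module_borel hp2 qc (qc.conj x) (M := M)
    (fun K a1 a2 a3 => d.uniq K (sup_le bot_le (zpowers_le.2 a1)) (hL ▸ a2) fun e =>
      a3 (e (mul_mem (mul_mem hx hcL) (inv_mem hx)))) (Y := w '' Y)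
    (by
      rintro _ ⟨y, hy, rfl⟩
      have h1 := conj_mem_of_N (hM cM) hy
      refine ⟨_, mul_mem h1 (inv_mem hy), ?_⟩
      rw [w2 _ (hY h1) _ (hY (inv_mem hy)), w3 _ _ (hY hy), w4 _ (hY hy), LinearMap.sub_apply,
        sub_eq_add_neg]; rfl)
    (fun m => by
      by_contra h1
      push Not at h1
      refine d.ne (d.res.trans (sup_le (pResidualOf_le_iff.2 fun g hg hc => ?_) d.le))
      refine zpowers_le.2 (hnc (g ^ p ^ m) (hc.coprime_dvd_left (orderOf_pow_dvd _)) fun y hy => ?_)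
        (mem_zpowers_pow_iff.2 (hc.symm.pow_left m))
      rw [← hπ1, map_commutatorElement, ← w1 y (hY hy), ← r.sub_one_apply, LinearMap.sub_apply,
        h1 g (hL ▸ hg) _ ⟨y, hy, rfl⟩, Module.End.one_apply, sub_self, r.map_zero])
  refine ⟨fun k => ?_, ?_⟩
  · obtain ⟨t, ht, -, h3, h4⟩ := h2 ⟨!![(k : ZMod p), 0; 0, ((k⁻¹ : (ZMod p)ˣ) : ZMod p)], by
      rw [Matrix.det_fin_two_of, Units.mul_inv, mul_zero, sub_zero]⟩ rfl
    let χ : Y →* Multiplicative W := MonoidHom.mk' (fun y => Multiplicative.ofAdd (ψ (w y)))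
      fun y y' => by rw [← ofAdd_add, ← map_add, ← w2 _ (hY y.2) _ (hY y'.2)]; rfl
    let τ : Y →* Y := (Y.normalizerMonoidHom ⟨t, hM ht⟩).toMonoidHom
    have e : ∀ y : Y, χ (τ y) = Multiplicative.ofAdd (r.ρ t (ψ (w y))) := fun y => by
      show Multiplicative.ofAdd (ψ (w (t * y * t⁻¹))) = _
      rw [w3 _ _ (hY y.2), ← Module.End.mul_apply, ← h3.eq, Module.End.mul_apply]
    obtain ⟨y, h5, h6, h7⟩ := exists_eigen (h.syl.isP.to_le (hY.trans hBS))
      (fun a b => Subtype.ext (mem_C.1 (ab b.2) a a.2)) τ χ.ker (fun y hy => by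
        have hy' : ψ (w y) = 0 := hy
        rw [MonoidHom.mem_ker, e, hy', map_zero]; rfl)
      (k := (k : ZMod p).val) (z := ⟨z, hz⟩) h1 (by
        rw [MonoidHom.mem_ker, map_mul, map_inv, map_pow, e, mul_inv_eq_one, h4]
        show _ = Multiplicative.ofAdd (ψ (w z)) ^ _
        rw [← ofAdd_nsmul, ← Nat.cast_smul_eq_nsmul (ZMod p), ZMod.natCast_zmod_val]; rfl)
    exact ⟨t, ht, y, y.2, fun e => h5 (Subtype.ext e), congrArg Subtype.val h6, congrArg Subtype.val h7⟩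
  · let A : Subgroup G :=
      { carrier := {b | b ∈ B ∧ ∃ u, κ u = w b}
        one_mem' := ⟨one_mem _, 0, by
          have := w2 1 (one_mem _) 1 (one_mem _)
          rw [mul_one, left_eq_add] at this
          rw [this, map_zero]⟩
        mul_mem' := by
          rintro b b' ⟨hb, u, e⟩ ⟨hb', u', e'⟩
          exact ⟨mul_mem hb hb', u + u', by rw [map_add, e, e', w2 b hb b' hb']⟩
        inv_mem' := by
          rintro b ⟨hb, u, e⟩
          exact ⟨inv_mem hb, -u, by rw [map_neg, e, w4 b hb]⟩ }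
    have t1 : ∀ b ∈ A, κ (Function.invFun κ (w b)) = w b := fun b hb => Function.invFun_eq hb.2
    refine ⟨A, fun b hb => hBS hb.1, fun b => Function.invFun κ (w b), fun b hb b' hb' => hκ ?_,
      fun u => ?_, fun N hN => ?_⟩
    · rw [map_add, t1 _ (mul_mem hb hb'), t1 b hb, t1 b' hb', w2 b hb.1 b' hb'.1]
    · obtain ⟨b, hb, e⟩ := w5 (κ u)
      exact ⟨b, ⟨hb, u, e.symm⟩, hκ (by rw [t1 b ⟨hb, u, e.symm⟩, e])⟩
    obtain ⟨g, hg, h3, -⟩ := h2 N hN
    have h4 : ∀ b ∈ A, κ (N.1 *ᵥ Function.invFun κ (w b)) = w (g * b * g⁻¹) := fun b hb => by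
      rw [← mem_planeGraph.1 h3, t1 b hb, w3 g b hb.1]
    have h5 : ∀ b ∈ A, g * b * g⁻¹ ∈ A := fun b hb =>
      ⟨Normal.conj_mem inferInstance b hb.1 g, _, h4 b hb⟩
    exact ⟨g, hg, h5, fun b hb => hκ (by rw [t1 _ (h5 b hb), h4 b hb])⟩

theorem powerClosure_lt (hB : IsPGroup p B) (h : B ≠ ⊥) : powerClosure p 1 B < B := by
  have : Nontrivial B := (nontrivial_iff_ne_bot B).2 h
  refine lt_of_le_of_lt (le_sup_right.trans (H3.map_frattini_eq_sup_powerClosure hB).ge) ?_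
  have := (map_lt_map_iff_of_injective B.subtype_injective).2 (H3.frattini_lt_top (G := B))
  rwa [map_subtype_top] at this

theorem zj_pmin (hp2 : p ≠ 2) (hc : C[pCore p G] ≤ pCore p G) (h : PMin p ⊤ S N[ZJn 0 S]) :
    (∀ k : (ZMod p)ˣ, GoodN p (k : ZMod p).val N[ZJn 0 S] (ZJn 0 S)) ∧ SecN p N[ZJn 0 S] S := by
  obtain ⟨S, rfl⟩ := h.syl.exists_sylow_top
  have hS := S.isPGroup'
  have hOS : pCore p G ≤ S := pCore_le_sylow S
  set Z := ZJn 0 (S : Subgroup G) with hZ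
  have hZD : Z ≤ S := inf_le_left.trans (Jn_le 0 _)
  have hSZ : (S : Subgroup G) ≤ N[Z] := h.le
  have hZZ : Z ≤ C[Z] := center_le_C _
  have h0 : ¬ (Z ⊓ pCore p G).Normal := fun h0 => h.ne (normal_iff_top_le_N.1 (by
    have h1 : ⁅normalClosure (Z : Set G), pCore p G⁆ ≤ Z ⊓ pCore p G :=
      H5.commutator_normalClosure_le (le_inf (comm_le_of_le_N (hOS.trans hSZ)) (comm_le_of_le_N'
        (le_N_of_normal _ _)))
    have h2 : normalClosure (Z : Set G) ≤ C[Z ⊓ pCore p G] :=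
      normalClosure_le_normal (hZZ.trans (C_anti inf_le_left))
    have h3 := res_le_C_of_chain (p := p) pgrp_pCore (le_N_of_normal (normalClosure (Z : Set G)) _)
      (U := Z ⊓ pCore p G) (by
        rw [commutator_comm]; exact (commutator_mono (pResidualOf_le _) le_rfl).trans h1)
      ((pResidualOf_le _).trans h2)
    have h4 : normalClosure (Z : Set G) ≤ pCore p G :=
      (H5.le_opMod fun x hx => (pow_mem_pResidualOf (p := p) hx).imp fun _ hk => h3 hk).trans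
        (H5.opMod_le_pCore (pgrp_pCore.to_le hc))
    rwa [inf_eq_left.2 (le_normalClosure.trans h4)] at h0))
  obtain ⟨B, hBO, ⟨hBn, hne⟩, hmin⟩ := exists_minimal_subgroup
    (P := fun B => B.Normal ∧ ¬ (Z ⊓ B).Normal) (H := pCore p G) ⟨inferInstance, h0⟩
  have ih : ∀ X < B, X.Normal → (Z ⊓ X).Normal := fun X h1 h2 => by_contra fun h3 =>
    h1.ne (hmin X ⟨h2, h3⟩ h1.le)
  have hBS : B ≤ S := hBO.trans hOS
  have hB : IsPGroup p B := hS.to_le hBS
  have hW : normalClosure ((Z ⊓ B : Subgroup G) : Set G) = B := by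
    have h1 : normalClosure ((Z ⊓ B : Subgroup G) : Set G) ≤ B := normalClosure_le_normal inf_le_right
    refine by_contra fun h => hne ?_
    have h2 := ih _ (lt_of_le_of_ne h1 h) inferInstance
    rwa [le_antisymm (inf_le_inf_left Z h1) (le_inf inf_le_left le_normalClosure)] at h2
  have gen : ∀ X : Subgroup G, X.Normal → Z ⊓ B ≤ X → B ≤ X := fun X _ h =>
    hW.ge.trans (normalClosure_le_normal h)
  have hB1 : B ≠ ⊥ := by rintro rfl; exact hne (by rw [inf_bot_eq]; infer_instance)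
  have hB' : ⁅B, B⁆ < B := pgrp_comm_lt hB le_rfl le_normalizer hB1
  have := ih _ hB' inferInstance
  have hB'Z : ⁅B, B⁆ ≤ Z := by
    refine le_trans ?_ (inf_le_left : Z ⊓ ⁅B, B⁆ ≤ Z)
    nth_rewrite 1 [← hW]
    exact H5.commutator_normalClosure_le (le_inf
      ((commutator_mono inf_le_left le_rfl).trans (comm_le_of_le_N (hBS.trans hSZ)))
      (commutator_mono inf_le_right le_rfl))
  obtain ⟨A, hA, h1, h2⟩ : ∃ A, MaxAb 0 S A ∧ B ≤ N[A] ∧ ¬ A ≤ pCore p G := by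
    by_contra h1
    push Not at h1
    have hall : ∀ A, MaxAb 0 S A → B ≤ A := by
      intro U hU
      by_contra h
      obtain ⟨A, hA, -, h2, h3⟩ := hU.exists_normed hS le_rfl le_normalizer hBS (le_N_of_normal _ _)
        (fun h => absurd h hp2) (by simp) (hU.le_of_C (hB'.le.trans hBS) (fun x _ => pow_zero x)
          (hB'Z.trans (inf_le_right.trans (C_anti hU.le_Jn)))) h
      have hAL := h1 A hA h3
      have := (isFn_Jn 0).normal (pCore p G)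
      have h4 : B ≤ C[Jn 0 (pCore p G)] := gen _ inferInstance
        (inf_le_left.trans (inf_le_right.trans (C_anti (hA.Jn_le hOS hAL))))
      exact h2 (hA.le_of_C hBS (fun x _ => pow_zero x) (h4.trans (C_anti (hA.mono hOS hAL).le_Jn)))
    have hJL : Jn 0 (S : Subgroup G) ≤ pCore p G :=
      Jn_le_iff.2 fun A hA => h1 A hA ((hall A hA).trans le_normalizer)
    refine h.ne (normal_iff_top_le_N.1 ?_)
    rw [hZ, ZJn, ← Jn_eq_of_le hOS hJL]
    exact (isFn_ZJn 0).normal _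
  obtain ⟨a, ha, haO⟩ := SetLike.not_le_iff_exists.1 h2
  set D := (Z ⊓ B).normalCore with hD
  have hBD : ⁅B, B⁆ ≤ D := normal_le_normalCore.2 (le_inf hB'Z hB'.le)
  have := H3.powerClosure_normal p 1 B
  have := ih _ (powerClosure_lt hB hB1) inferInstance
  have h3 : Z ⊓ powerClosure p 1 B ≤ D := normal_le_normalCore.2 (inf_le_inf_left _ powerClosure_le)
  let X : Subgroup G :=
    { carrier := {x | x ∈ B ∧ x ^ p ∈ D}
      one_mem' := ⟨one_mem _, by rw [one_pow]; exact one_mem _⟩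
      mul_mem' := by
        rintro x y ⟨hx, hx'⟩ ⟨hy, hy'⟩
        refine ⟨mul_mem hx hy, ?_⟩
        rw [← QuotientGroup.eq_one_iff] at hx' hy' ⊢
        have : Commute (x : G ⧸ D) y := by
          rw [← commutatorElement_eq_one_iff_commute]
          exact (QuotientGroup.eq_one_iff ⁅x, y⁆).2 (hBD (commutator_mem_commutator hx hy))
        rw [QuotientGroup.mk_pow] at hx' hy' ⊢
        rw [QuotientGroup.mk_mul, this.mul_pow, hx', hy', one_mul]
      inv_mem' := by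
        rintro x ⟨hx, hx'⟩
        exact ⟨inv_mem hx, by rw [inv_pow]; exact inv_mem hx'⟩ }
  have h4 : B ≤ X := gen X ⟨fun x hx g => ⟨hBn.conj_mem x hx.1 g, by
    rw [conj_pow]; exact Normal.conj_mem inferInstance _ hx.2 g⟩⟩ fun x hx =>
      ⟨hx.2, h3 ⟨pow_mem hx.1 p, H3.pow_mem_powerClosure_one p hx.2⟩⟩
  obtain ⟨h5, h6⟩ := toolT hp2 h hBS hBD (fun b hb => (h4 hb).2) (Y := Z ⊓ B) inf_le_right
    (inf_le_left.trans (hZZ.trans (C_anti inf_le_left))) (le_N_inf le_rfl (le_N_of_normal _ _))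
    (fun g _ hg => h.uniq N[Z ⊓ B] (le_N_inf hSZ (le_N_of_normal _ _)) le_top
      (fun e => hne (normal_iff_top_le_N.2 e)) (mem_N_of_cj_le (cj_le_iff'.2 fun y hy => by
        have := mul_mem (normalCore_le _ (hg y hy)) hy
        rwa [commutatorElement_def, inv_mul_cancel_right] at this)))
    (hA.le ha) haO (quad_zpowers_of_mem (quad_of_le_N hA.ab.1 h1) ha)
  refine ⟨fun k => ?_, h6⟩
  obtain ⟨t, ht, y, hy, h7⟩ := h5 k
  exact ⟨t, ht, y, hy.1, h7⟩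

theorem cen_pmin (hp2 : p ≠ 2) (hc : C[pCore p G] ≤ pCore p G) (h : PMin p ⊤ S N[Z]) (ab : Z ≤ C[Z])
    {Z₀ : Subgroup G} (h0 : Z₀ ≤ Z ⊓ (S ⊓ C[S])) (hJ : N[Jn 0 S] ≤ N[Z]) (hC : C[Z₀] ≤ N[Z])
    (k : (ZMod p)ˣ) : GoodN p (k : ZMod p).val N[Z] Z := by
  obtain ⟨A, hA, h1, h2⟩ := H4T.exists_quad h.syl fun e => h.ne (e.trans hJ)
  have hP : ChP p (⊤ : Subgroup G) := by
    unfold ChP
    rw [pCoreOf_top]
    exact inf_le_right.trans hc
  have h3 := hP.center_syl_le h.syl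
  have QS := pCoreOf_le_syl h.syl
  rw [pCoreOf_top] at h1 h2 h3 QS
  set V := pCore p G ⊓ C[pCore p G] with hV
  have abV : V ≤ C[V] := center_le_C _
  obtain ⟨a, ha, haO⟩ := SetLike.not_le_iff_exists.1 h1
  obtain ⟨z₀, hz₀, h4⟩ : ∃ z ∈ Z₀, z ∉ center G := by
    by_contra h4
    push Not at h4
    exact h.ne (le_trans (fun g _ => mem_C.2 fun z hz => (mem_center_iff.1 (h4 z hz) g).symm) hC)
  obtain ⟨m, hm⟩ := pgrp_iff.1 h.syl.isP z₀ (h0 hz₀).2.1
  obtain ⟨j, h5, h6⟩ := exists_pow_mem_of_not_mem (p := p) h4 (k := m) (by rw [hm]; exact one_mem _)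
  have hz := h0 (pow_mem hz₀ j)
  generalize z₀ ^ j = z at h5 h6 hz
  let X : Subgroup G :=
    { carrier := {x | x ∈ V ∧ x ^ p ∈ center G}
      one_mem' := ⟨one_mem _, by rw [one_pow]; exact one_mem _⟩
      mul_mem' := by
        rintro x y ⟨hx, hx'⟩ ⟨hy, hy'⟩
        refine ⟨mul_mem hx hy, ?_⟩
        rw [Commute.mul_pow (mem_C.1 (abV hy) x hx)]
        exact mul_mem hx' hy'
      inv_mem' := by
        rintro x ⟨hx, hx'⟩
        exact ⟨inv_mem hx, by rw [inv_pow]; exact inv_mem hx'⟩ }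
  have : X.Normal := ⟨fun x hx g => ⟨Normal.conj_mem inferInstance x hx.1 g, by
    rw [conj_pow]; exact Normal.conj_mem inferInstance _ hx.2 g⟩⟩
  have XV : X ≤ V := fun x hx => hx.1
  have key : ∀ g : G, (orderOf g).Coprime p → (∀ y ∈ Z ⊓ X, ⁅g, y⁆ ∈ center G) → g ∈ C[zpowers z] := by
    intro g hg h7
    have h8 := h7 z ⟨hz.1, h3 hz.2, h6⟩
    have h9 : ∀ n : ℕ, g ^ n * z * (g ^ n)⁻¹ = ⁅g, z⁆ ^ n * z := fun n => by
      induction n with
      | zero => simp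
      | succ n ih =>
        calc _ = g * (g ^ n * z * (g ^ n)⁻¹) * g⁻¹ := by rw [pow_succ']; group
          _ = g * ⁅g, z⁆ ^ n * g⁻¹ * (g * z * g⁻¹ * z⁻¹) * z := by rw [ih]; group
          _ = _ := by
            rw [mem_center_iff.1 (pow_mem h8 n) g, mul_inv_cancel_right, ← commutatorElement_def, pow_succ]
    have h10 := h9 (orderOf g)
    rw [pow_orderOf_eq_one, one_mul, inv_one, mul_one, right_eq_mul] at h10
    have h11 : ⁅g, z⁆ ∈ pCore p G := comm_le_of_le_N' (le_N_of_normal ⊤ _)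
      (commutator_mem_commutator (mem_top g) (h3 hz.2).1)
    obtain ⟨n, hn⟩ := pgrp_iff.1 pgrp_pCore _ h11
    have h12 := (pow_eq_one_iff_of_coprime (hg.pow_right n)).1 ⟨h10, hn⟩
    rw [commutatorElement_eq_one_iff_mul_comm] at h12
    exact le_centralizer_iff.1 (zpowers_le.2 (mem_C.2 fun y hy => by
      obtain ⟨i, rfl⟩ := hy
      exact (Commute.zpow_left h12 i).eq)) (mem_zpowers g)
  obtain ⟨t, ht, y, hy, h7⟩ := (toolT hp2 h (B := X) (D := center G) (XV.trans (inf_le_left.trans QS))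
    ((commutator_mono XV XV).trans ((le_C_iff_comm.1 abV).le.trans bot_le)) (fun b hb => hb.2)
    (Y := Z ⊓ X) inf_le_right (inf_le_left.trans (ab.trans (C_anti inf_le_left)))
    (le_N_inf le_rfl (le_N_of_normal _ _)) (fun g hg h7 => h.uniq C[zpowers z]
      (le_centralizer_iff.1 (zpowers_le.2 hz.2.2)) le_top (fun e => h5 (mem_center_iff.2 fun g =>
        (mem_C.1 (e (mem_top g)) z (mem_zpowers z)).symm)) (key g hg h7)) (hA.le ha) haO
    (quad_zpowers_of_mem (quad_of_le_N hA.ab.1 (XV.trans h2)) ha)).1 k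
  exact ⟨t, ht, y, hy.1, h7⟩

theorem exists_pmin (hS : SylIn p S ⊤) (hc : C[pCore p G] ≤ pCore p G) (hZ : Z ≤ S) (hN : N[S] ≤ N[Z])
    (hn : ¬ Z.Normal) : ∃ H : Subgroup G, S ≤ H ∧ C[pCore p H] ≤ pCore p H ∧
      PMin p ⊤ (S.subgroupOf H) N[Z.subgroupOf H] := by
  obtain ⟨H, -, ⟨h1, h2⟩, h3⟩ := exists_minimal_subgroup (P := fun H => S ≤ H ∧ ¬ H ≤ N[Z]) (H := ⊤)
    ⟨le_top, fun h => hn (normal_iff_top_le_N.2 h)⟩
  have : ChP p (⊤ : Subgroup G) := by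
    unfold ChP
    rw [pCoreOf_top]
    exact inf_le_right.trans hc
  refine ⟨H, h1, chP_iff.1 (this.of_pCoreOf_le le_top ((pCoreOf_le_syl hS).trans h1)), ?_⟩
  rw [N_subgroupOf (hZ.trans h1)]
  refine ⟨H21.sylIn_subgroupOf (hS.mono h1 le_top), fun x hx => hN (le_normalizer hx), le_top,
    fun h => h2 fun x hx => h (mem_top (⟨x, hx⟩ : H)), fun K a1 _ a3 => ?_, fun h => ?_⟩
  · refine map_le_iff_le_comap.1 ?_
    by_contra a4
    have a5 := h3 (K.map H.subtype) ⟨fun x hx => ⟨⟨x, h1 hx⟩, a1 hx, rfl⟩, a4⟩ (map_subtype_le _)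
    refine a3 fun x _ => ?_
    obtain ⟨y, hy, e⟩ := a5.ge x.2
    exact (Subtype.ext e : y = x) ▸ hy
  · rw [N_subgroupOf h1] at h
    exact h2 fun x hx => hN (h (mem_top (⟨x, hx⟩ : H)))

theorem GoodN.up {H : Subgroup G} {k : ℕ} (hZ : Z ≤ H) (h : GoodN p k N[Z.subgroupOf H] (Z.subgroupOf H)) :
    GoodN p k N[Z] Z := by
  rw [N_subgroupOf hZ] at h
  obtain ⟨t, ht, y, hy, h1, h2, h3⟩ := h
  exact ⟨t, ht, y, hy, fun e => h1 (Subtype.ext e), congrArg Subtype.val h2, congrArg Subtype.val h3⟩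

theorem SecN.up {H : Subgroup G} (hZ : Z ≤ H) (h : SecN p N[Z.subgroupOf H] (S.subgroupOf H)) :
    SecN p N[Z] S := by
  classical
  rw [N_subgroupOf hZ] at h
  obtain ⟨A, hA, θ, h1, h2, h3⟩ := h
  have e : ∀ a : H, (fun g : G => if hg : g ∈ H then θ ⟨g, hg⟩ else 0) a = θ a := fun a => dif_pos a.2
  refine ⟨A.map H.subtype, ?_, fun g => if hg : g ∈ H then θ ⟨g, hg⟩ else 0, ?_, fun u => ?_,
    fun N hN => ?_⟩
  · rintro _ ⟨a, ha, rfl⟩; exact hA ha
  · rintro _ ⟨a, ha, rfl⟩ _ ⟨b, hb, rfl⟩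
    exact (e (a * b)).trans ((h1 a ha b hb).trans (congrArg₂ _ (e a).symm (e b).symm))
  · obtain ⟨a, ha, h4⟩ := h2 u
    exact ⟨a, ⟨a, ha, rfl⟩, (e a).trans h4⟩
  · obtain ⟨g, hg, h4, h5⟩ := h3 N hN
    refine ⟨g, hg, ?_, ?_⟩
    · rintro _ ⟨a, ha, rfl⟩; exact ⟨_, h4 a ha, rfl⟩
    · rintro _ ⟨a, ha, rfl⟩
      exact (e (g * a * g⁻¹)).trans ((h5 a ha).trans (congrArg _ (e a).symm))

theorem zj_group (hp2 : p ≠ 2) (hS : SylIn p S ⊤) (hc : C[pCore p G] ≤ pCore p G)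
    (hn : ¬ (ZJn 0 S).Normal) :
    (∀ k : (ZMod p)ˣ, GoodN p (k : ZMod p).val N[ZJn 0 S] (ZJn 0 S)) ∧ SecN p N[ZJn 0 S] S := by
  have hZ := (isFn_ZJn 0).le S
  obtain ⟨H, h1, h2, h3⟩ := exists_pmin hS hc hZ ((isFn_ZJn 0).N_le S) hn
  have e := (isFn_ZJn 0).subgroupOf h1
  rw [e] at h3
  have := zj_pmin hp2 h2 h3
  rw [← e] at this
  exact ⟨fun k => (this.1 k).up (hZ.trans h1), this.2.up (hZ.trans h1)⟩

theorem cen_group (hp2 : p ≠ 2) (hS : SylIn p S ⊤) (hc : C[pCore p G] ≤ pCore p G) (hZ : Z ≤ S)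
    (ab : Z ≤ C[Z]) {Z₀ : Subgroup G} (h0 : Z₀ ≤ Z ⊓ (S ⊓ C[S])) (hJ : N[Jn 0 S] ≤ N[Z])
    (hC : C[Z₀] ≤ N[Z]) (hn : ¬ Z.Normal) (k : (ZMod p)ˣ) : GoodN p (k : ZMod p).val N[Z] Z := by
  obtain ⟨H, h1, h2, h3⟩ := exists_pmin hS hc hZ (((isFn_Jn 0).N_le S).trans hJ) hn
  have ZH := hZ.trans h1
  have e := (isFn_Jn 0).subgroupOf h1
  refine (cen_pmin hp2 h2 h3 ?_ (Z₀ := Z₀.subgroupOf H) ?_ ?_ ?_ k).up ZH
  · rw [C_subgroupOf ZH]; exact fun x hx => ab hx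
  · rw [C_subgroupOf h1]; exact fun x hx => h0 hx
  · rw [← e, N_subgroupOf ZH, N_subgroupOf ((Jn_le 0 S).trans h1)]; exact fun x hx => hJ hx
  · rw [N_subgroupOf ZH, C_subgroupOf (h0.trans (inf_le_left.trans ZH))]; exact fun x hx => hC hx

end Cfsg.Agent.H4F
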