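import Cfsg.Agent.H4.Fp2
import Cfsg.Agent.H5.FGrp

/-! Failure of control of fusion by `Z(J(S))`: the reduction to constrained systems. -/

set_option autoImplicit false
set_option linter.unusedSectionVars false
set_option linter.unusedVariables false

namespace Cfsg.Agent.H4F

open Cfsg.FusionSystem Cfsg.Agent.H17 Cfsg.Agent.H18
open scoped commutatorElement MatrixGroups Matrix

universe u

section
variable {Ω : Type*} [Group Ω] {S T P Z : Subgroup Ω} {F : FusionSystem S} {E : FusionSystem T}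
  {f : Ω → Ω} {p : ℕ}

theorem nmor_pres (h : NMor F Z P f) {x : Ω} (hx : x ∈ P) (hZ : x ∈ Z) : f x ∈ Z := by
  obtain ⟨-, g, -, h1, h2⟩ := h
  rw [← h1 x hx, ← h2]
  exact mem_img_of_mem g (h2.symm ▸ hZ)

/-- an automorphism of `Z` in `F` raises an element of order `p` to the `k`-th power -/
def GoodF (p k : ℕ) (F : FusionSystem S) (Z : Subgroup Ω) : Prop :=
  ∃ f, Mor F Z f ∧ (∀ z ∈ Z, f z ∈ Z) ∧ ∃ y ∈ Z, y ≠ 1 ∧ y ^ p = 1 ∧ f y = y ^ k

theorem GoodF.mono {k : ℕ} (hE : E.IsSubsystemOf F) (h : GoodF p k E Z) : GoodF p k F Z :=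
  h.imp fun _ hf => ⟨H18.Mor.of_sub hE hf.1, hf.2⟩

/-- the Borel subgroup of `SL(2,p)` acts on a section, through maps of the class `Mo` -/
def HasB (p : ℕ) (Mo : Subgroup Ω → (Ω → Ω) → Prop) : Prop :=
  ∃ (A : Subgroup Ω) (θ : Ω → Fin 2 → ZMod p), (∀ a ∈ A, ∀ b ∈ A, θ (a * b) = θ a + θ b) ∧
    (∀ u, ∃ a ∈ A, θ a = u) ∧ ∀ N : SL(2, ZMod p), N.1 1 0 = 0 → ∃ f, Mo A f ∧
      (∀ a ∈ A, f a ∈ A) ∧ ∀ a ∈ A, θ (f a) = N.1 *ᵥ θ a

theorem HasB.mono {Mo Mo' : Subgroup Ω → (Ω → Ω) → Prop} (h : HasB p Mo)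
    (h1 : ∀ P f, Mo P f → Mo' P f) : HasB p Mo' := by
  obtain ⟨A, θ, h2, h3, h4⟩ := h
  exact ⟨A, θ, h2, h3, fun N hN => (h4 N hN).imp fun f hf => ⟨h1 _ _ hf.1, hf.2⟩⟩

variable [Finite S] [Fact p.Prime]

theorem tower2 (hS : IsPGroup p S) (hF : F.IsSaturated p) (hST : S ≤ T)
    (h1 : ∀ σ ∈ AutF F S, Mor E S σ)
    (h2 : ∀ U, U ≠ ⊥ → F.IsFullyNormalized U → (normalizerIn S U < S → ∀ W ≤ S, W ≠ ⊥ →
      normalizerIn S (normalizerIn S U) ≤ Subgroup.normalizer (W : Set Ω) →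
        ∀ P f, NMor F W P f → Mor E P f) → ∀ P f, NMor F U P f → Mor E P f) :
    F.IsSubsystemOf E := by
  have key := down_induction (S := S) (M := fun R => ∀ U, normalizerIn S U = R → U ≠ ⊥ →
      F.IsFullyNormalized U → ∀ P f, NMor F U P f → Mor E P f) ?_
  · refine subsystem_of_ess hS hF hST fun R hR σ hσ => ?_
    rcases hR with hR | hR
    · exact hR ▸ h1 σ (hR ▸ hσ)
    · exact key _ normalizerIn_le R rfl (ess_ne_bot hS hF hR) hR.2.1 _ _
        (nmor_of_mor (AutF.mor hR.1.1 hσ) le_rfl Subgroup.le_normalizer (AutF.img_eq hσ))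
  rintro R hR ih U rfl hU hfn
  refine h2 U hU hfn fun hlt W hwS hW0 hw3 P f hf => ?_
  set R := normalizerIn S U with hRdef
  obtain ⟨τ, hτ, hτfn⟩ := sat_exists_fn hS hF hwS
  have : Finite (normalizerIn S W) := H17.finite_of_le normalizerIn_le
  have hlt' : Nat.card R < Nat.card (normalizerIn S W) :=
    card_lt_of_lt ((lt_normalizerIn hS hlt).trans_le (le_inf normalizerIn_le hw3))
  have hτE : Mor E (normalizerIn S W) τ := by
    refine mor_of_ess_ge hS hF hST (k := Nat.card R + 1) (fun R' hR' hk σ hσ => ?_) hτ hlt'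
    rcases hR' with hR' | hR'
    · exact hR' ▸ h1 σ (hR' ▸ hσ)
    · have : Finite (normalizerIn S R') := H17.finite_of_le normalizerIn_le
      exact ih _ normalizerIn_le (lt_of_lt_of_le hk (card_le_of_le (le_normalizerIn hR'.1.1))) R' rfl
        (ess_ne_bot hS hF hR') hR'.2.1 _ _
        (nmor_of_mor (AutF.mor hR'.1.1 hσ) le_rfl Subgroup.le_normalizer (AutF.img_eq hσ))
  refine mor_of_conj hτE hf.1 (fun x hx => hf.mem hx) (ih _ normalizerIn_le ?_ _ rfl ?_ hτfn _ _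
    (nmor_conj hτ hf))
  · exact hlt'.trans_le (hτ.card_le le_rfl normalizerIn_le fun x hx =>
      hτ.map_mem_normalizerIn (le_normalizerIn hwS) hx hx.2)
  · intro e
    have := (hτ.mono (le_normalizerIn hwS)).card_img le_rfl
    rw [e, Subgroup.card_bot] at this
    exact hW0 (Subgroup.card_eq_one.1 this.symm)

section model
variable {G : Type*} [Group G] [Finite G] {R : Subgroup G} {j : Ω → G} {k : G → Ω}

theorem goodF_of_goodN (hI : Iso F (groupFusionSystem R) j k) (hZ : Z ≤ S) {n : ℕ}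
    (h : GoodN p n (Subgroup.normalizer (img j Z : Set G)) (img j Z)) : GoodF p n F Z := by
  obtain ⟨t, ht, _, hy', h1, h2, h3⟩ := h
  obtain ⟨y, hy, rfl⟩ := hI.exists_of_mem_img hZ hy'
  have h6 : ∀ z ∈ Z, t * j z * t⁻¹ ∈ img j Z := fun z hz => H22.conj_mem_of_N ht (mem_img_of_mem j hz)
  have h7 : ∀ z ∈ Z, t * j z * t⁻¹ ∈ R := fun z hz => hI.img_le hZ (h6 z hz)
  refine ⟨fun z => k (t * j z * t⁻¹), hI.mor_group_iff.2 ⟨hZ, fun z hz => hI.mk' _ (h7 z hz), t,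
    fun z hz => hI.jk _ (h7 z hz)⟩, fun z hz => ((hI.mem_img hZ).1 (h6 z hz)).2, y, hy,
    fun e => h1 (by rw [e, hI.hj.map_one]), hI.injOn (hZ (pow_mem hy p)) (one_mem S) ?_, ?_⟩
  · rw [hI.hj.map_pow (hZ hy), h2, hI.hj.map_one]
  · show k (t * j y * t⁻¹) = _
    rw [h3, ← hI.hj.map_pow (hZ hy), hI.kj _ (hZ (pow_mem hy n))]

theorem hasB_of_secN (hI : Iso F (groupFusionSystem R) j k) (hZ : Z ≤ S)
    (hN : S ≤ Subgroup.normalizer (Z : Set Ω)) (h : SecN p (Subgroup.normalizer (img j Z : Set G)) R) :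
    HasB p (NMor F Z) := by
  obtain ⟨A, hA, θ, h1, h2, h3⟩ := h
  have AS := hI.symm.img_le hA
  have m : ∀ x ∈ img k A, j x ∈ A := fun x hx => ((hI.symm.mem_img hA).1 hx).2
  refine ⟨img k A, fun x => θ (j x), fun a ha b hb => ?_, fun u => ?_, fun N hN' => ?_⟩
  · rw [← h1 _ (m a ha) _ (m b hb), ← hI.hj.map_mul (AS ha) (AS hb)]
  · obtain ⟨a, ha, e⟩ := h2 u
    exact ⟨k a, mem_img_of_mem k ha, by rw [← e, ← hI.jk a (hA ha), hI.kj _ (hI.mk' a (hA ha))]⟩
  obtain ⟨g, hg, h4, h5⟩ := h3 N hN'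
  refine ⟨fun x => k (g * j x * g⁻¹), hI.nmor_group_of hZ (le_inf AS (AS.trans hN))
    (fun x hx => hI.mk' _ (hA (h4 _ (m x hx)))) hg fun x hx => hI.jk _ (hA (h4 _ (m x hx))),
    fun x hx => mem_img_of_mem k (h4 _ (m x hx)), fun x hx => ?_⟩
  show θ (j (k _)) = _
  rw [hI.jk _ (hA (h4 _ (m x hx))), h5 _ (m x hx)]

theorem mem_N_of_sys (hS : IsPGroup p S) (hI : Iso F (groupFusionSystem R) j k)
    (hc : Subgroup.centralizer (pCore p G : Set G) ≤ pCore p G) (hQ : img j F.core = pCore p G)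
    (hN : S ≤ Subgroup.normalizer (Z : Set Ω)) {D : FusionSystem S} (hD : D.IsSubsystemOf F)
    (hZ : D.IsNormal Z) {g : G} (h : Mor D F.core fun x => k (g * j x * g⁻¹)) :
    g ∈ Subgroup.normalizer (img j Z : Set G) := by
  obtain ⟨n, hn, e⟩ := hI.exists_of_nmor (nmor_mono hD (nmor_of_normal hZ h))
  have QR : pCore p G ≤ R := hQ ▸ hI.img_le (core_le F)
  have h1 : n⁻¹ * g ∈ pCore p G := hc (Subgroup.mem_centralizer_iff.2 fun y hy => by
    obtain ⟨x, hx, rfl⟩ := hI.exists_of_mem_img (core_le F) (hQ ▸ hy)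
    have := e x hx
    rw [hI.jk _ (QR (Subgroup.Normal.conj_mem inferInstance _ hy g))] at this
    calc j x * (n⁻¹ * g) = n⁻¹ * (n * j x * n⁻¹) * g := by group
      _ = _ := by rw [← this]; group)
  obtain ⟨x, hx, e1⟩ := hI.exists_of_mem_img (core_le F) (hQ ▸ h1)
  have h2 := (hI.apply_mem_normalizer hZ.1 (core_le F hx)).2 (hN (core_le F hx))
  have h3 := mul_mem hn (e1 ▸ h2)
  rwa [mul_inv_cancel_left] at h3

end model

end

variable {p : ℕ} [Fact p.Prime]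

/-- the generation statement for an abelian normal subgroup `Z` of `S` -/
def L1 (p k : ℕ) {Ω : Type u} [Group Ω] {S : Subgroup Ω} (F : FusionSystem S) : Prop :=
  IsPGroup p S → F.IsSaturated p → ∀ Z Z₀ : Subgroup Ω, Z ≤ S → S ≤ Subgroup.normalizer (Z : Set Ω) →
    (∀ x ∈ Z, ∀ y ∈ Z, x * y = y * x) → Z₀ ≤ Z ⊓ centralizerIn S S → Z₀ ≠ ⊥ →
    (∀ P f, NMor F (thompsonSubgroupAOf S) P f → ∀ x ∈ P, x ∈ Z → f x ∈ Z) →
    (∀ P f, CMor F Z₀ P f → ∀ x ∈ P, x ∈ Z → f x ∈ Z) → F.IsNormal Z ∨ GoodF p k F Z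

theorem quot_step {k : ℕ} {Ω : Type u} [Group Ω] {S Z : Subgroup Ω} [Finite S] {F : FusionSystem S}
    (hS : IsPGroup p S) (hF : F.IsSaturated p) (ZS : Z ≤ S) (SN : S ≤ Subgroup.normalizer (Z : Set Ω))
    (ab : ∀ x ∈ Z, ∀ y ∈ Z, x * y = y * x) (h1 : F.core ≠ ⊥) (hA : IsPGroup p (F.autGroup F.core))
    (hD : ∀ D : FusionSystem S, D.IsSaturated p → D.IsSubsystemOf F → ¬ F.IsSubsystemOf D → D.IsNormal Z)
    (ih : ∀ (Ω' : Type u) [Group Ω'] (S' : Subgroup Ω') [Finite S'] (F' : FusionSystem S'),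
      Nat.card S' < Nat.card S → L1 p k F') : F.IsNormal Z ∨ GoodF p k F Z := by
  have hW := posFunctor_thompsonA.{u} p
  obtain ⟨Ω', _, S', _, F', a, ha, hK, hS', hF'⟩ := exists_surj_quot hS hF (normal_sc (normal_core F))
  have haZ := ha.hom.mono ZS
  by_cases h0 : img a Z = ⊥
  · refine Or.inl (normal_of_sc_comm hS hF (stronglyClosed_iff.2 ⟨ZS, fun P f hf x hx hxZ => ?_⟩) ab)
    obtain ⟨s, hs, e⟩ := exists_conj_of_isPGroup hS hF (normal_core F) hA hf
    rw [e x hx (hK ▸ le_pre ZS h0.le hxZ)]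
    exact conj_mem_of_mem_normalizer (SN hs) hxZ
  have ZS' := ha.img_le ZS
  have SN' : S' ≤ Subgroup.normalizer (img a Z : Set Ω') := fun y hy => by
    obtain ⟨x, hx, rfl⟩ := ha.exists_mem hy
    exact ha.hom.map_mem_normalizer ZS hx (SN hx)
  have key : ∀ R' ≤ S', S' ≤ Subgroup.normalizer (R' : Set Ω') → R' ≠ ⊥ → ∀ P' f', NMor F' R' P' f' →
      ∃ f, Mor F (pre S a P') f ∧ (∀ x ∈ pre S a P', f' (a x) = a (f x)) ∧
        ∀ x ∈ pre S a P', x ∈ Z → f x ∈ Z := fun R' a1 a2 a3 P' f' hf => by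
    obtain ⟨D, hD1, hD2, hD3, hD4⟩ := exists_proper_lift hS hF ha hK a1 a2 a3
    obtain ⟨f, h2, h3⟩ := hD4 P' f' hf
    exact ⟨f, H18.Mor.of_sub hD2 h2, h3, fun x hx => sc_mem (normal_sc (hD D hD1 hD2 hD3)) h2 hx⟩
  have key' : ∀ R' ≤ S', S' ≤ Subgroup.normalizer (R' : Set Ω') → R' ≠ ⊥ → ∀ P' f', NMor F' R' P' f' →
      ∀ y ∈ P', y ∈ img a Z → f' y ∈ img a Z := fun R' a1 a2 a3 P' f' hf y hy hyZ => by
    obtain ⟨f, -, h2, h3⟩ := key R' a1 a2 a3 P' f' hf
    obtain ⟨x, hx, rfl⟩ := haZ.mem_img.1 hyZ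
    have h4 := ha.hom.mem_pre.2 ⟨ZS hx, hy⟩
    rw [h2 x h4]
    exact mem_img_of_mem a (h3 x h4 hx)
  have : Finite (img a Z) := H17.finite_of_le ZS'
  have h2 := H22.pgrp_inf_C_ne_bot hS' (hS'.to_le ZS') SN' h0
  have hS0 : S' ≠ ⊥ := fun e => h0 (le_bot_iff.1 (e ▸ ZS'))
  rcases ih Ω' S' F' (surj_card_lt ha (hK ▸ h1)) hS' hF' (img a Z) _ ZS' SN'
    (fun _ hx' _ hy' => by
      obtain ⟨x, hx, rfl⟩ := haZ.mem_img.1 hx'
      obtain ⟨y, hy, rfl⟩ := haZ.mem_img.1 hy'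
      rw [← haZ.map_mul hx hy, ab x hx y hy, haZ.map_mul hy hx])
    (le_inf inf_le_left (inf_le_inf_right _ ZS')) h2
    (key' _ (WOf_le S') (hW.le_normalizer hS') (hW.WOf_ne_bot hS' hS0))
    (fun P' f' hf => key' _ (inf_le_left.trans ZS') ((Subgroup.le_centralizer_iff.1 inf_le_right).trans
      (Subgroup.centralizer_le_normalizer _)) h2 P' f' hf.nmor) with h3 | ⟨f', h3, h4, y, hy, h5, h6, h7⟩
  · exact absurd (le_bot_iff.1 (core_eq_bot_of_isPGroup hS hF ha hK hA ▸ le_core h3)) h0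
  obtain ⟨f, h8, h9, h10⟩ := key _ ZS' SN' h0 _ f'
    (nmor_of_mor h3 le_rfl Subgroup.le_normalizer (h3.img_eq_of_le le_rfl h4))
  have h11 : Z ≤ pre S a (img a Z) := le_pre_img ZS
  have hf := h8.mono h11
  have hfZ : ∀ z ∈ Z, f z ∈ Z := fun z hz => h10 z (h11 hz) hz
  obtain ⟨z, hz, rfl⟩ := haZ.mem_img.1 hy
  have : Finite Z := H17.finite_of_le ZS
  obtain ⟨w, h12, h13, h14⟩ := exists_eigen (hS.to_le ZS) (fun x y => Subtype.ext (ab x x.2 y y.2))
    (hf.homOn.toHom.codRestrict Z fun x => hfZ x x.2) haZ.toHom.ker (fun x hx => by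
      have hx' : a x = 1 := hx
      show a (f x) = 1
      rw [← h9 x (h11 x.2), hx', h3.homOn.map_one]) (k := k) (z := ⟨z, hz⟩) h5 (by
      rw [MonoidHom.mem_ker, map_mul, map_inv, map_pow, mul_inv_eq_one]
      show a (f z) = a z ^ k
      rw [← h9 z (h11 hz), h7])
  exact Or.inr ⟨f, hf, hfZ, w, w.2, fun e => h12 (Subtype.ext e), congrArg Subtype.val h13,
    congrArg Subtype.val h14⟩

theorem l1 (hp : p ≠ 2) (c : (ZMod p)ˣ) {Ω : Type u} [Group Ω] {S : Subgroup Ω} [Finite S]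
    (F : FusionSystem S) : L1 p (c : ZMod p).val F := by
  have hW := posFunctor_thompsonA.{u} p
  refine fs_induction (M := fun {Ω} _ {S} F => L1 p (c : ZMod p).val F)
    (fun Ω _ S _ F ih1 ih2 hS hF Z Z₀ ZS SN ab h0 h0' hJ hC => ?_) Ω S F
  refine or_iff_not_imp_right.2 fun hG => ?_
  obtain ⟨E, hE⟩ := exists_nsys_top F ZS SN
  have hD : ∀ D : FusionSystem S, D.IsSaturated p → D.IsSubsystemOf F → ¬ F.IsSubsystemOf D →
      D.IsNormal Z := fun D a1 a2 a3 =>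
    (ih2 S D a2 a3 hS a1 Z Z₀ ZS SN ab h0 h0' (fun P f hf => hJ P f (nmor_mono a2 hf))
      fun P f hf => hC P f (cmor_mono a2 hf)).resolve_right fun h => hG (h.mono a2)
  have hD' : ∀ D : FusionSystem S, D.IsSaturated p → D.IsSubsystemOf F → ¬ F.IsSubsystemOf D →
      D.IsSubsystemOf E := fun D a1 a2 a3 =>
    subsystem_iff.2 fun P f hf => (hE P f).2 (nmor_mono a2 (nmor_of_normal (hD D a1 a2 a3) hf))
  have Z0C : Z₀ ≤ Subgroup.centralizer (S : Set Ω) := h0.trans (inf_le_right.trans inf_le_right)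
  by_cases hc : F.core = ⊥
  · refine hE.normal_of_sub (tower2 hS hF le_rfl (fun σ hσ => ?_) fun U hU hfn h P f hf => ?_)
    · have h1 := AutF.mor le_rfl hσ
      exact (hE _ _).2 (nmor_of_mor h1 ZS SN (h1.img_eq_of_le ZS fun x hx =>
        hJ _ _ (hW.nmor_top hS h1) x (ZS hx) hx))
    have pr : ∀ {T : Subgroup Ω} {N : FusionSystem T}, NSys F U N → ¬ F.IsSubsystemOf N :=
      fun hN h => hU (le_bot_iff.1 (hc ▸ le_core (hN.normal_of_sub h)))
    rcases (normalizerIn_le (S := S) (P := U)).eq_or_lt with e | hlt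
    · obtain ⟨N, hN⟩ := exists_nsys_top F hfn.1 (e.ge.trans inf_le_right)
      exact H18.Mor.of_sub (hD' N (hN.saturated hS hF hfn) hN.sub (pr hN)) ((hN P f).2 hf)
    set R := normalizerIn S U with hR
    obtain ⟨N, hN⟩ : ∃ N : FusionSystem R, NSys F U N := exists_nsys F hfn.1
    have RS : R ≤ S := normalizerIn_le
    have : Finite R := H17.finite_of_le RS
    have pR := hS.to_le RS
    have Z0R : Z₀ ≤ Z ⊓ R := le_inf (h0.trans inf_le_left)
      (h0.trans (inf_le_right.trans (centralizerIn_self_le_normalizerIn hfn.1)))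
    have h1 := h hlt (Z ⊓ R) (inf_le_left.trans ZS) (fun e => h0' (le_bot_iff.1 (e ▸ Z0R)))
      (H22.le_N_inf (normalizerIn_le.trans SN) inf_le_right)
    have h2 := h hlt _ ((WOf_le R).trans RS) (hW.WOf_ne_bot pR fun e => hU (le_bot_iff.1
      (e ▸ le_normalizerIn hfn.1))) (inf_le_right.trans (hW.normalizer_le pR))
    rcases ih2 R N hN.sub (pr hN) pR (hN.saturated hS hF hfn) (Z ⊓ R) Z₀ inf_le_right
      (H22.le_N_inf (RS.trans SN) Subgroup.le_normalizer) (fun x hx y hy => ab x hx.1 y hy.1)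
      (le_inf Z0R (le_inf (Z0R.trans inf_le_right) (Z0C.trans (Subgroup.centralizer_le RS)))) h0'
      (fun P f hf x hx hxZ => ⟨nmor_pres ((hE P f).1 (h2 P f (nmor_mono hN.sub hf))) hx hxZ.1,
        hf.mor.mem hx⟩)
      (fun P f hf x hx hxZ => ⟨hC P f (cmor_mono hN.sub hf) x hx hxZ.1, hf.nmor.mor.mem hx⟩)
      with h3 | ⟨g, h3, h4, y, hy, h5, h6, h7⟩
    · exact h1 P f (nmor_mono hN.sub (nmor_of_normal h3 ((hN P f).2 hf)))
    · refine absurd ?_ hG
      obtain ⟨-, g', h8, h9, h10⟩ := (hE _ _).1 (h1 _ g (nmor_mono hN.sub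
        (nmor_of_mor h3 le_rfl Subgroup.le_normalizer (h3.img_eq_of_le le_rfl h4))))
      exact ⟨g', h8.mono le_sup_right, fun z hz => h10 ▸ mem_img_of_mem g' (h10.symm ▸ hz), y, hy.1,
        h5, h6, by rw [h9 y hy, h7]⟩
  rcases normal_cases hS hF le_rfl (normal_core F) hD' with h1 | h1 | h1
  · exact hE.normal_of_sub h1
  swap
  · exact (quot_step hS hF ZS SN ab hc h1 hD ih1).resolve_right hG
  have h2 := le_sup_right.trans (le_core h1)
  obtain ⟨G, _, _, P, j, k, hI, h3, hQ⟩ := exists_sylow_model hS ((constrained_iff hF).2 h2)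
  have QP : pCore p G ≤ P := hQ ▸ hI.img_le (core_le F)
  have m : ∀ g : G, ∀ x ∈ F.core, g * j x * g⁻¹ ∈ (P : Subgroup G) := fun g x hx =>
    QP (Subgroup.Normal.conj_mem inferInstance _ (hQ ▸ mem_img_of_mem j hx) g)
  have Z0S : Z₀ ≤ S := h0.trans (inf_le_left.trans ZS)
  refine hI.normal_of_group ZS (by_contra fun hn => hG (goodF_of_goodN hI ZS (cen_group hp (sylIn_top P)
    h3 (hI.img_le ZS) ?_ (Z₀ := img j Z₀) ?_ (fun g hg => ?_) (fun g hg => ?_) hn c)))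
  · intro _ hx' _ hy'
    obtain ⟨x, hx, rfl⟩ := hI.exists_of_mem_img ZS hx'
    obtain ⟨y, hy, rfl⟩ := hI.exists_of_mem_img ZS hy'
    rw [← hI.hj.map_mul (ZS hy) (ZS hx), ab y hy x hx, hI.hj.map_mul (ZS hx) (ZS hy)]
  · have := img_mono j (h0.trans inf_le_right)
    rw [hI.img_centralizerIn_top le_rfl, hI.img_top] at this
    exact le_inf (img_mono j (h0.trans inf_le_left)) this
  · obtain ⟨D, hD⟩ := exists_nsys_top F (thompsonAOf_le S) (hW.le_normalizer hS)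
    rw [← H5b.thompsonAOf_eq_Jn, ← hI.img_top, ← (hI.restrict le_rfl).img_thompsonAOf] at hg
    exact mem_N_of_sys hS hI h3 hQ SN hD.sub (normal_of_sc_comm hS (hD.saturated hS hF
      (fn_of_normal F hD.le (hW.le_normalizer hS))) (stronglyClosed_iff.2
        ⟨ZS, fun P f hf => hJ P f ((hD P f).1 hf)⟩) ab) ((hD _ _).2 (hI.nmor_group_of hD.le
          (le_inf (core_le F) ((core_le F).trans (hW.le_normalizer hS)))
          (fun x hx => hI.mk' _ (m g x hx)) hg fun x hx => hI.jk _ (m g x hx)))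
  · have SC := Subgroup.le_centralizer_iff.1 Z0C
    obtain ⟨D, hD⟩ := exists_csys_top F Z0S SC
    refine mem_N_of_sys hS hI h3 hQ SN hD.sub (normal_of_sc_comm hS (hD.saturated hS hF
      (fc_of_central F Z0S SC)) (stronglyClosed_iff.2
        ⟨ZS, fun P f hf => hC P f ((hD P f).1 hf)⟩) ab) ((hD _ _).2 (cmor_of_mor
          (hI.mor_group_iff.2 ⟨core_le F, fun x hx => hI.mk' _ (m g x hx), g,
            fun x hx => hI.jk _ (m g x hx)⟩)
          (h0.trans (inf_le_right.trans ((centralizerIn_anti (core_le F)).trans h2)))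
          ((core_le F).trans SC) fun x hx => ?_))
    rw [← Subgroup.mem_centralizer_iff.1 hg _ (mem_img_of_mem j hx), mul_inv_cancel_right,
      hI.kj _ (Z0S hx)]

theorem normal_or_goodF (hp : p ≠ 2) (c : (ZMod p)ˣ) {Ω : Type u} [Group Ω] {S : Subgroup Ω} [Finite S]
    {F : FusionSystem S} (hS : IsPGroup p S) (hF : F.IsSaturated p) :
    F.IsNormal (centerThompsonAOf S) ∨ GoodF p (c : ZMod p).val F (centerThompsonAOf S) := by
  refine fs_sub_induction (M := fun {S} F => IsPGroup p S → F.IsSaturated p →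
    F.IsNormal (centerThompsonAOf S) ∨ GoodF p (c : ZMod p).val F (centerThompsonAOf S))
    (fun S _ F ih hS hF => ?_) S F hS hF
  refine or_iff_not_imp_right.2 fun hG => ?_
  set Z := centerThompsonAOf S with hZ
  have ZS : Z ≤ S := inf_le_left.trans (thompsonAOf_le S)
  have SN : S ≤ Subgroup.normalizer (Z : Set Ω) := by
    rw [hZ, H5b.centerThompsonAOf_eq]; exact (H5b.isFn_ZJn 0).le_N S
  have ab : ∀ x ∈ Z, ∀ y ∈ Z, x * y = y * x := fun x hx y hy => hy.2 x hx.1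
  by_cases h0 : S = ⊥
  · rw [show Z = ⊥ from le_bot_iff.1 (h0 ▸ ZS)]; exact normal_bot F
  obtain ⟨E, hE⟩ := exists_nsys_top F ZS SN
  have hD : ∀ D : FusionSystem S, D.IsSaturated p → D.IsSubsystemOf F → ¬ F.IsSubsystemOf D →
      D.IsNormal Z := fun D a1 a2 a3 => (ih S D a2 a3 hS a1).resolve_right fun h => hG (h.mono a2)
  have SC : S ≤ Subgroup.centralizer (centralizerIn S S : Set Ω) :=
    Subgroup.le_centralizer_iff.1 inf_le_right
  obtain ⟨D, hD1⟩ := exists_csys_top F centralizerIn_le SC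
  have h1 := centralizerIn_self_ne_bot hS h0
  by_cases h2 : F.IsSubsystemOf D
  swap
  · refine (l1 hp c F hS hF Z _ ZS SN ab (le_inf ?_ le_rfl) h1 (fun P f hf x hx hxZ => ?_)
      fun P f hf x hx => sc_mem (normal_sc (hD D (hD1.saturated hS hF
        (fc_of_central F centralizerIn_le SC)) hD1.sub h2)) ((hD1 P f).2 hf) hx).resolve_right hG
    · exact le_inf (centralizerIn_self_le_WOf (W := fun (Q : Type u) [Group Q] => thompsonSubgroupA Q)
        (fun Q _ _ _ => center_le_thompsonA) hS)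
        (inf_le_right.trans (Subgroup.centralizer_le (thompsonAOf_le S)))
    · refine ⟨nmor_pres hf hx hxZ.1, fun w hw => ?_⟩
      obtain ⟨-, g, h3, h4, h5⟩ := hf
      obtain ⟨y, hy, rfl⟩ := (h3.homOn.mono le_sup_right).mem_img.1 (h5.ge hw)
      have a1 := Subgroup.mem_sup_left (T := thompsonSubgroupAOf S) hx
      have a2 := Subgroup.mem_sup_right (S := P) hy
      rw [← h4 x hx, ← h3.homOn.map_mul a2 a1, hxZ.2 y hy, h3.homOn.map_mul a1 a2]
  have hc : F.core ≠ ⊥ := fun e =>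
    h1 (le_bot_iff.1 (e ▸ le_core (central_normal (hD1.central_of_sub h2))))
  rcases normal_cases hS hF le_rfl (normal_core F) (E := E) (fun D a1 a2 a3 => subsystem_iff.2
    fun P f hf => (hE P f).2 (nmor_mono a2 (nmor_of_normal (hD D a1 a2 a3) hf))) with h3 | h3 | h3
  · exact hE.normal_of_sub h3
  · obtain ⟨G, _, _, P, j, k, hI, h4, -⟩ := exists_sylow_model hS ((constrained_iff hF).2
      (le_sup_right.trans (le_core h3)))
    have e : img j Z = H5b.ZJn 0 (P : Subgroup G) := by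
      rw [hZ, hI.toPIso.img_centerThompsonAOf, H5b.centerThompsonAOf_eq]
    refine hI.normal_of_group ZS (by_contra fun hn => hG (goodF_of_goodN hI ZS ?_))
    rw [e] at hn ⊢
    exact (zj_group hp (sylIn_top P) h4 hn).1 c
  · exact (quot_step hS hF ZS SN ab hc h3 hD fun Ω' _ S' _ F' _ => l1 hp c F').resolve_right hG

theorem normal_or_hasB (hp : p ≠ 2) {Ω : Type u} [Group Ω] {S : Subgroup Ω} [Finite S]
    {F : FusionSystem S} (hS : IsPGroup p S) (hF : F.IsSaturated p) :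
    F.IsNormal (H5b.ZJn 0 S) ∨ HasB p (NMor F (H5b.ZJn 0 S)) := by
  have hW := H5b.posFunctor_ZJ.{u} (p := p)
  have eW : ∀ {Ω : Type u} [Group Ω] (S : Subgroup Ω),
      WOf (H5b.toC.{u} fun _ _ S => H5b.ZJn 0 S) S = H5b.ZJn 0 S := fun S => (H5b.isFn_ZJn 0).induced_toC S
  rw [← eW]
  refine fs_induction (M := fun {Ω} _ {S} F => IsPGroup p S → F.IsSaturated p →
    F.IsNormal (WOf (H5b.toC.{u} fun _ _ S => H5b.ZJn 0 S) S) ∨
      HasB p (NMor F (WOf (H5b.toC.{u} fun _ _ S => H5b.ZJn 0 S) S)))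
    (fun Ω _ S _ F ih1 ih2 hS hF => ?_) Ω S F hS hF
  refine or_iff_not_imp_right.2 fun hG => ?_
  obtain ⟨E, hE⟩ := exists_nsys_top F (WOf_le S) (hW.le_normalizer hS)
  have hih : ∀ (U : Subgroup Ω) (D : FusionSystem U), D.IsSaturated p → D.IsSubsystemOf F →
      ¬ F.IsSubsystemOf D → centralizerIn S S ≤ U →
      (∀ P f, NMor D (WOf (H5b.toC.{u} fun _ _ S => H5b.ZJn 0 S) U) P f → Mor E P f) →
      D.IsSubsystemOf E := by
    intro U D h1 h2 h3 _ h5
    have : Finite U := H17.finite_of_le (le_of_subsystem h2)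
    rcases ih2 U D h2 h3 (hS.to_le (le_of_subsystem h2)) h1 with h6 | h6
    · exact subsystem_iff.2 fun P f hf => h5 P f (nmor_of_normal h6 hf)
    · exact absurd (h6.mono fun P f hf => (hE P f).1 (h5 P f hf)) hG
  rcases control_cases hW hS hF le_rfl (fun P f => (hE P f).2) hih with h1 | h1 | ⟨h1, h2, h3⟩
  · exact hE.normal_of_sub h1
  · obtain ⟨G, _, _, P, j, k, hI, hc, -⟩ := exists_sylow_model hS h1
    have e := hW.img_eq hS hI.toPIso
    refine hI.normal_of_group (WOf_le S) (by_contra fun hn => hG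
      (hasB_of_secN hI (WOf_le S) (hW.le_normalizer hS) ?_))
    rw [e, eW] at hn ⊢
    exact (zj_group hp (sylIn_top P) hc hn).2
  obtain ⟨Ω', _, S', _, F', a, ha, hK, hS', hF'⟩ := exists_surj_quot hS hF (normal_sc (normal_core F))
  have h4 := hW.WOf_ne_bot hS' (surj_ne_bot ha (hK ▸ h2))
  obtain ⟨D, hD1, hD2, hD3, hD4⟩ := exists_proper_lift hS hF ha hK (WOf_le S') (hW.le_normalizer hS') h4
  have hDE := hih S D hD1 hD2 hD3 centralizerIn_le fun P f hf => (hE P f).2 (nmor_mono hD2 hf)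
  rcases ih1 Ω' S' F' (surj_card_lt ha (hK ▸ h1)) hS' hF' with h5 | ⟨A, θ, h5, h6, h7⟩
  · exact absurd (le_bot_iff.1 (core_eq_bot_of_isPGroup hS hF ha hK h3 ▸ le_core h5)) h4
  refine absurd ⟨pre S a A, fun x => θ (a x), fun x hx y hy => ?_, fun u => ?_, fun N hN => ?_⟩ hG
  · rw [← h5 _ (ha.hom.mem_pre.1 hx).2 _ (ha.hom.mem_pre.1 hy).2,
      ← ha.hom.map_mul (pre_le hx) (pre_le hy)]
  · obtain ⟨f, hf, -⟩ := h7 1 rfl
    obtain ⟨y, hy, e⟩ := h6 u
    obtain ⟨x, hx, rfl⟩ := ha.exists_pre hf.mor.le hy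
    exact ⟨x, hx, e⟩
  · obtain ⟨f', h8, h9, h10⟩ := h7 N hN
    obtain ⟨f, h11, h12⟩ := hD4 A f' h8
    refine ⟨f, (hE _ _).1 (H18.Mor.of_sub hDE h11), fun x hx => ha.hom.mem_pre.2 ⟨h11.mem hx, ?_⟩,
      fun x hx => ?_⟩
    · rw [← h12 x hx]; exact h9 _ (ha.hom.mem_pre.1 hx).2
    · show θ (a (f x)) = _
      rw [← h12 x hx, h10 _ (ha.hom.mem_pre.1 hx).2]

end Cfsg.Agent.H4F
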