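import Cfsg.Agent.H4.Fp3

/-! The group `F(p)` and the final translation to groups. -/

set_option autoImplicit false
set_option linter.unusedSectionVars false
set_option linter.unusedVariables false

namespace Cfsg.Agent.H4F
open Subgroup Cfsg.Agent.H22 Cfsg.Agent.H5b
open Cfsg.Agent.H18 hiding cj mem_cj conj_mem_cj conj_mem_cj_iff cj_le_iff cj_cj cj_one cj_inv_cj
  cj_cj_inv cj_mono cj_inf cj_sup cj_eq_iff cj_eq_of_mem cj_eq_of_normal cj_top card_cj isPGroup_cj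
open scoped commutatorElement MatrixGroups Matrix

variable {p : ℕ} [hp : Fact p.Prime]

theorem qdV_le_qdB : qdV p ≤ qdB p := by rintro _ ⟨x, y, rfl⟩; exact qdMk_mem_qdB.2 rfl

theorem qdLike_B (h2 : p ≠ 2) : QdLike p ((qdV p).subgroupOf (qdB p)) where
  normal := qdV_normal.subgroupOf _
  isP := isPGroup_subgroupOf (qdLike p).isP
  cent := by
    have := C_subgroupOf (qdV_le_qdB (p := p))
    rw [this]
    exact fun x hx => (qdLike p).cent hx
  ex := by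
    let t : qd p := qdMk (-1) 0 0 (-1) 0 0 (by simp)
    have ht2 : t ^ 2 = 1 := by simp [t, pow_succ, qdMk_mul, qd_one]
    have tB : zpowers t ≤ qdB p := zpowers_le.2 (qdMk_mem_qdB.2 rfl)
    refine ⟨(qdK p).subgroupOf _, (zpowers t).subgroupOf _, 2, Nat.prime_two, Ne.symm h2, ?_, ?_,
      fun x hx => (zpowers_le (G := qd p) (H := qdK p)).2 ⟨_, _, _, _, _, rfl⟩ hx, ?_,
      isPGroup_subgroupOf (isPGroup_zpowers_of_pow ht2), ?_⟩
    · rw [subgroupOf, subgroupOf, ← comap_inf, qdV_inf_qdK]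
      exact (MonoidHom.comap_bot _).trans (ker_subtype _)
    · rw [eq_top_iff]
      rintro ⟨g, hg⟩ _
      obtain ⟨a, b, c, d, x, y, h, rfl⟩ := qd_cases g
      have : (⟨qdMk a b c d x y h, hg⟩ : qdB p) = ⟨qdMk 1 0 0 1 x y (by simp), qdMk_mem_qdB.2 rfl⟩ *
          ⟨qdMk a b c d 0 0 h, hg⟩ := Subtype.ext (by simp [qdMk_mul])
      rw [this]
      exact mul_mem (mem_sup_left ⟨x, y, rfl⟩) (mem_sup_right ⟨a, b, c, d, h, rfl⟩)
    · have := N_subgroupOf tB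
      rw [this]
      rintro ⟨_, hg⟩ ⟨a, b, c, d, h, rfl⟩
      show qdMk a b c d 0 0 h ∈ N[zpowers t]
      refine H18.mem_normalizer_of_conj_mem fun x hx => ?_
      obtain ⟨n, rfl⟩ := hx
      have : qdMk a b c d 0 0 h * t * (qdMk a b c d 0 0 h)⁻¹ = t := by
        rw [mul_inv_eq_iff_eq_mul]
        simp [t, qdMk_mul]
      simpa only [← conj_zpow, this] using (zpowers t).zpow_mem (mem_zpowers t) n
    · rintro ⟨_, hv⟩ ⟨u, v, rfl⟩ h
      have : t * qdMk 1 0 0 1 u v (by simp) * t⁻¹ = qdMk 1 0 0 1 u v (by simp) :=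
        congrArg Subtype.val (h ⟨t, tB (mem_zpowers t)⟩ (mem_zpowers t))
      rw [qdMk_conj, qdMk_inj] at this
      refine Subtype.ext ?_
      show qdMk 1 0 0 1 u v (by simp) = 1
      rw [qd_one, qdMk_inj]
      have h2' : (2 : ZMod p) ≠ 0 := H10.two_ne_zero_of_charP h2
      obtain ⟨-, -, -, -, h3, h4⟩ := this
      refine ⟨rfl, rfl, rfl, rfl, (mul_eq_zero.1 (?_ : 2 * u = 0)).resolve_left h2',
        (mul_eq_zero.1 (?_ : 2 * v = 0)).resolve_left h2'⟩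
      · linear_combination -h3
      · linear_combination -h4

theorem fOver_eq : (qdB p).map (qd p).subtype = fOver (ZMod p) := by
  refine le_antisymm ?_ ((closure_le _).2 fun M hM => ⟨⟨M, subset_closure hM.2⟩, hM.1, rfl⟩)
  rintro _ ⟨M, hM, rfl⟩
  exact subset_closure ⟨hM, qd_row M⟩

variable {G : Type*} [Group G] [Finite G] {S Z : Subgroup G}

theorem involves_of_hasB (h2 : p ≠ 2) (hN : S ≤ N[Z]) (h : HasB p (H17.NMor (groupFusionSystem S) Z)) :
    Involves (fOver (ZMod p)) N[Z] := by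
  obtain ⟨A, θ, h1, h3, h4⟩ := h
  obtain ⟨_, h5, -⟩ := h4 1 rfl
  have AN : A ≤ N[Z] := h5.mor.le.trans hN
  refine (involves_congr_left (((qdB p).equivMapOfInjective _ (qd p).subtype_injective).trans
    (MulEquiv.subgroupCongr fOver_eq))).1 (involves_of_grpSec (qdLike_B h2) (A := A.subgroupOf N[Z]) ?_)
  have m : ∀ u, qdT p u ∈ qdV p := fun u => range_qdT (p := p) ▸ ⟨u, rfl⟩
  refine ⟨MonoidHom.mk' (fun a => ⟨qdT p (Multiplicative.ofAdd (θ a.1)), qdV_le_qdB (m _)⟩)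
    fun a b => Subtype.ext (by
      show qdT p _ = qdT p _ * qdT p _
      rw [← map_mul, ← ofAdd_add, ← h1 a.1 a.2 b.1 b.2]; rfl), ?_, fun h => ?_⟩
  · ext ⟨v, hv⟩
    constructor
    · rintro ⟨a, e⟩; rw [← e]; exact m _
    · intro hv'
      obtain ⟨u, rfl⟩ : v ∈ (qdT p).range := range_qdT (p := p) ▸ hv'
      obtain ⟨a, ha, e⟩ := h3 u.toAdd
      exact ⟨⟨⟨a, AN ha⟩, ha⟩, Subtype.ext (by
        show qdT p (Multiplicative.ofAdd (θ a)) = _
        rw [e]; rfl)⟩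
  obtain ⟨f, h6, h7, h8⟩ := h4 (qdPi p h) h.2
  obtain ⟨g, hg, e⟩ := (iso_refl _).exists_of_nmor h6
  have hg' : g ∈ N[Z] := by
    have : H17.img id Z = Z := (pIso_id Z).img_top
    rwa [this] at hg
  have e' : ∀ x ∈ A, f x = g * x * g⁻¹ := e
  refine ⟨⟨g, hg'⟩, fun a => (e' _ a.2 ▸ h7 _ a.2 : g * a.1 * g⁻¹ ∈ A), fun a => Subtype.ext ?_⟩
  show qdT p (Multiplicative.ofAdd (θ (g * a.1 * g⁻¹))) = h * qdT p (Multiplicative.ofAdd (θ a.1)) * h.1⁻¹
  rw [conj_qdT, ← e' a.1 a.2, h8 a.1 a.2]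

theorem exists_line {c : (ZMod p)ˣ} (hc : orderOf c = p - 1)
    (h : GoodF p (c : ZMod p).val (groupFusionSystem S) Z) : ∃ C : Subgroup G, C ≤ Z ∧ Nat.card C = p ∧
      (N[Z] ⊓ C[C]).relIndex (N[Z] ⊓ N[C]) = p - 1 := by
  obtain ⟨f, hf, h1, y, hy, h2, h3, h4⟩ := h
  obtain ⟨-, -, s, hs⟩ := H17.mor_group.1 hf
  have ho : orderOf y = p := orderOf_eq_prime h3 h2
  have hcard : Nat.card (zpowers y) = p := by rw [Nat.card_zpowers, ho]
  rw [hs y hy] at h4
  have s1 : s ∈ N[Z] := mem_N_of_cj_le (cj_le_iff'.2 fun z hz => hs z hz ▸ h1 z hz)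
  have s2 : s ∈ N[zpowers y] := mem_N_of_cj_le (by
    rw [cj_zpowers, h4]; exact zpowers_le.2 (pow_mem (mem_zpowers y) _))
  refine ⟨zpowers y, zpowers_le.2 hy, hcard, ?_⟩
  let φ : ↥(N[Z] ⊓ N[zpowers y]) →* MulAut (zpowers y) :=
    (zpowers y).normalizerMonoidHom.comp (inclusion inf_le_right)
  have hk : (N[Z] ⊓ C[zpowers y]).subgroupOf (N[Z] ⊓ N[zpowers y]) = φ.ker := by
    ext g
    rw [MonoidHom.mem_ker, mem_subgroupOf]
    constructor
    · intro hg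
      ext x
      show (g : G) * x * (g : G)⁻¹ = x
      rw [← mem_C.1 hg.2 x x.2, mul_inv_cancel_right]
    · intro hg
      refine ⟨g.2.1, mem_C.2 fun x hx => ?_⟩
      have : (g : G) * x * (g : G)⁻¹ = x := congrArg (fun α : MulAut (zpowers y) => (α ⟨x, hx⟩ : G)) hg
      exact (mul_inv_eq_iff_eq_mul.1 this).symm
  rw [relIndex, hk, index_ker]
  refine Nat.dvd_antisymm ?_ ?_
  · have := card_subgroup_dvd_card φ.range
    rwa [IsCyclic.card_mulAut, hcard, Nat.totient_prime hp.out] at this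
  refine dvd_trans ?_ (orderOf_dvd_natCard (⟨_, ⟨s, s1, s2⟩, rfl⟩ : φ.range))
  rw [← hc]
  refine orderOf_dvd_of_pow_eq_one ?_
  generalize hn : orderOf (⟨_, ⟨s, s1, s2⟩, rfl⟩ : φ.range) = n
  have h5 : φ (⟨s, s1, s2⟩ ^ n) = 1 := by
    rw [map_pow, ← hn]
    exact congrArg Subtype.val (pow_orderOf_eq_one (⟨_, ⟨s, s1, s2⟩, rfl⟩ : φ.range))
  have h6 : s ^ n * y * (s ^ n)⁻¹ = y :=
    congrArg (fun α : MulAut (zpowers y) => (α ⟨y, mem_zpowers y⟩ : G)) h5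
  have h7 : ∀ m : ℕ, s ^ m * y * (s ^ m)⁻¹ = y ^ (c : ZMod p).val ^ m := fun m => by
    induction m with
    | zero => simp
    | succ m ih =>
      calc _ = s * (s ^ m * y * (s ^ m)⁻¹) * s⁻¹ := by rw [pow_succ']; group
        _ = _ := by rw [ih, ← conj_pow, h4, ← pow_mul, pow_succ']
  rw [h7] at h6
  have h8 := pow_eq_pow_iff_modEq.1 (h6.trans (pow_one y).symm)
  rw [ho, ← ZMod.natCast_eq_natCast_iff, Nat.cast_pow, ZMod.natCast_zmod_val, Nat.cast_one] at h8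
  exact Units.ext (by simpa using h8)

end Cfsg.Agent.H4F
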