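import Mathlib
import Cfsg.Agent.H1.G2a
import Cfsg.Agent.H2.Cores

/-! Sylow `2`-subgroups of type `G₂(q)`: assembly of the structure of `C(t)/O(C(t))`. -/

set_option autoImplicit false
set_option linter.unusedSectionVars false
set_option linter.unusedVariables false

namespace Cfsg.Agent.H1.G2

open Subgroup Cfsg.Agent.H19.Gt

universe u v

/-- the central involution of `S` -/
theorem pF_t {G K : Type*} [Group G] [CommGroup K] {S : Subgroup G} {τ : K × K →* G} {u v : G} {z : K}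
    (h : Gz S τ u v z) {t : G} (ht : orderOf t = 2) (htS : t ∈ S) (htZ : ∀ s ∈ S, s * t = t * s) :
    t = τ (z, z) := by
  obtain ⟨ρ, r, -⟩ := h.rho
  obtain ⟨a, b, rfl | rfl | rfl | rfl⟩ := (h.mem _).1 htS
  · have e : a = b := (h.toGs.cv (a := 1) (b := 1)).1 (by
      rw [t1, one_mul]; exact (htZ v (h.M_le h.vM)).symm)
    subst e
    have e2 : τ (a, a) * τ (a, a) = 1 := by rw [← pow_two, ← ht, pow_orderOf_eq_one]
    rw [tm, h.toGs.teq1] at e2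
    rcases h.inv2 e2.1 with rfl | rfl
    · rw [t1, orderOf_one] at ht; exact absurd ht (by norm_num)
    · rfl
  · exact absurd (r ▸ (h.toGs.cu.1 (htZ _ (h.toGs.tS ρ ρ))).1) h.z1
  · exact absurd (h.toGs.cv.1 (htZ _ (h.toGs.tS z 1))) h.z1
  · exact absurd (h.zi ▸ (h.toGs.cw.1 (htZ _ (h.toGs.tS z 1))).symm) h.z1

theorem pF {K : Type v} [CommGroup K] [Finite K] (P : ∀ {Y : Type u} [Group Y] [Finite Y], Subgroup Y → Prop)
    (A1 : ∀ {G : Type u} [Group G] [Finite G] {τ : K × K →* G} {u v : G} {z : K} {S : Sylow 2 G}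
      (h : Gz (S : Subgroup G) τ u v z) (h1 : ∀ x y : G, orderOf x = 2 → orderOf y = 2 → IsConj x y),
      ∀ s ∈ h.M, s * s = 1 → s ≠ 1 → s ≠ τ (z, z) → ∃ c : G, c * τ (z, z) = τ (z, z) * c ∧ c * s * c⁻¹ = τ (z, 1))
    (A2 : ∀ {G : Type u} [Group G] [Finite G] {τ : K × K →* G} {u v : G} {z : K} {S : Sylow 2 G}
      (h : Gz (S : Subgroup G) τ u v z) (hc : ∀ g : G, g * τ (z, z) = τ (z, z) * g) {a : K} (ha : ¬ IsSquare a),
      ¬ IsConj (τ (a, 1) * u) (τ (z, 1)))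
    (D : ∀ {G : Type u} [Group G] [Finite G] {τ : K × K →* G} {u v : G} {z : K} {S : Sylow 2 G}
      (h : Gz (S : Subgroup G) τ u v z) (hc : ∀ g : G, g * τ (z, z) = τ (z, z) * g)
      (fus : ∀ s ∈ h.M, s * s = 1 → s ≠ 1 → s ≠ τ (z, z) → IsConj s (τ (z, 1)))
      (nc : ∀ a : K, ¬ IsSquare a → ¬ IsConj (τ (a, 1) * u) (τ (z, 1))), ∃ X, Hy S τ u v z X)
    (E : ∀ {G : Type u} [Group G] [Finite G] {τ : K × K →* G} {u v : G} {z : K} {S : Sylow 2 G} {X : Subgroup G}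
      (h : Hy S τ u v z X), ∃ (S' : Sylow 2 (G ⧸ Cfsg.oddCore G)) (τ' : K × K →* G ⧸ Cfsg.oddCore G)
        (u' v' : G ⧸ Cfsg.oddCore G) (X' : Subgroup (G ⧸ Cfsg.oddCore G)), Hy S' τ' u' v' z X')
    (B4 : ∀ {G : Type u} [Group G] [Finite G] {τ : K × K →* G} {u v : G} {z : K} {S : Sylow 2 G} {X : Subgroup G}
      (h : Hy S τ u v z X) (hO : Cfsg.oddCore G = ⊥) (h4 : Nat.card K = 4),
      ∃ N : Subgroup G, N.Normal ∧ (S : Subgroup G) ⊓ N = h.gz.Q)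
    (B8 : ∀ {G : Type u} [Group G] [Finite G] {τ : K × K →* G} {u v : G} {z : K} {S : Sylow 2 G} {X : Subgroup G}
      (h : Hy S τ u v z X) (hO : Cfsg.oddCore G = ⊥) (h8 : 8 ∣ Nat.card K),
      ∃ N : Subgroup G, N.Normal ∧ (S : Subgroup G) ⊓ N = h.gz.Q)
    (C : ∀ {G : Type u} [Group G] [Finite G] {τ : K × K →* G} {u v : G} {z : K} {S : Sylow 2 G} {X : Subgroup G}
      (h : Hy S τ u v z X) (hO : Cfsg.oddCore G = ⊥) {N₁ N₂ : Subgroup G} (n1 : N₁.Normal) (n2 : N₂.Normal)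
      (e1 : (S : Subgroup G) ⊓ N₁ = h.gz.flp.Q) (e2 : (S : Subgroup G) ⊓ N₂ = h.gz.Q),
      ∃ L₁ L₂ : Subgroup G, L₁.Normal ∧ L₂.Normal ∧ P L₁ ∧ P L₂ ∧ ⁅L₁, L₂⁆ = ⊥ ∧ L₁ ⊔ L₂ = _root_.commutator G)
    {G : Type u} [Group G] [Finite G] {τ : K × K →* G} {u v : G} (S : Sylow 2 G) (hK : IsPGroup 2 K)
    (h : Gs (S : Subgroup G) τ u v) (h1 : ∀ x y : G, orderOf x = 2 → orderOf y = 2 → IsConj x y)
    (t : G) (ht : orderOf t = 2) (htS : t ∈ (S : Subgroup G)) (htZ : ∀ s ∈ (S : Subgroup G), s * t = t * s) :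
    ∃ L₁ L₂ : Subgroup (↥(centralizer ({t} : Set G)) ⧸ Cfsg.oddCore ↥(centralizer ({t} : Set G))),
      L₁.Normal ∧ L₂.Normal ∧ P L₁ ∧ P L₂ ∧ ⁅L₁, L₂⁆ = ⊥ ∧ L₁ ⊔ L₂ = _root_.commutator _ := by
  haveI : Fact (Nat.Prime 2) := ⟨Nat.prime_two⟩
  obtain ⟨ρ, r1, r2, -, -⟩ := cyc_data h.cyc h.four
  have hz : Gz (S : Subgroup G) τ u v (ρ * ρ) := ⟨h, inferInstance, hK, r1, r2⟩
  generalize ρ * ρ = z at hz
  obtain rfl := pF_t hz ht htS htZ
  have hle : (S : Subgroup G) ≤ centralizer {τ (z, z)} := fun s hs => mem_centralizer_singleton_iff.2 (htZ s hs)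
  let τ' : K × K →* centralizer ({τ (z, z)} : Set G) := τ.codRestrict _ fun x => hle (h.tS x.1 x.2)
  let u' : centralizer ({τ (z, z)} : Set G) := ⟨u, hle (hz.M_le hz.uM)⟩
  let v' : centralizer ({τ (z, z)} : Set G) := ⟨v, hle (hz.M_le hz.vM)⟩
  have g' : Gz ((S.subtype hle : Sylow 2 _) : Subgroup (centralizer ({τ (z, z)} : Set G))) τ' u' v' z := by
    refine ⟨⟨h.cyc, h.four, fun a b e => h.inj (congrArg Subtype.val e), Subtype.ext h.uu, Subtype.ext h.vv,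
      Subtype.ext h.uv, fun a b => Subtype.ext (h.ut a b), fun a b => Subtype.ext (h.vt a b), fun g => ?_⟩,
      hz.fin, hz.two, hz.z1, hz.zz⟩
    rw [Sylow.coe_subtype, mem_subgroupOf, h.mem]
    simp only [Subtype.ext_iff]
    rfl
  have hc : ∀ g, g * τ' (z, z) = τ' (z, z) * g := fun g => Subtype.ext (mem_centralizer_singleton_iff.1 g.2)
  obtain ⟨X, hX⟩ := D g' hc (fun s hs s2 s1 st => by
    have hs' : s.1 ∈ hz.M := by
      obtain ⟨a, b, q, e⟩ := g'.memM.1 hs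
      refine hz.memM.2 ⟨a, b, q, ?_⟩
      simp only [Subtype.ext_iff] at e
      exact e
    obtain ⟨c, c1, c2⟩ := A1 hz h1 s.1 hs' (congrArg Subtype.val s2) (fun e => s1 (Subtype.ext e))
      (fun e => st (Subtype.ext e))
    exact isConj_iff.2 ⟨⟨c, mem_centralizer_singleton_iff.2 c1⟩, Subtype.ext c2⟩) fun a ha => A2 g' hc ha
  obtain ⟨S', τ₁, u₁, v₁, X', hy⟩ := E hX
  have hO : Cfsg.oddCore (centralizer ({τ (z, z)} : Set G) ⧸ Cfsg.oddCore (centralizer ({τ (z, z)} : Set G))) = ⊥ :=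
    H2.pPrimeCore_quotient_self
  have hk : Nat.card K = 4 ∨ 8 ∣ Nat.card K := by
    obtain ⟨n, hn⟩ := IsPGroup.iff_card.1 hK
    have h4 := h.four
    rw [hn] at h4 ⊢
    have : 2 ≤ n := (Nat.pow_dvd_pow_iff_le_right one_lt_two).1 (show 2 ^ 2 ∣ 2 ^ n from h4)
    rcases this.eq_or_lt with rfl | e
    · exact Or.inl rfl
    · exact Or.inr (pow_dvd_pow 2 e)
  obtain ⟨N₁, n1, e1⟩ := hk.elim (B4 hy.flp hO) (B8 hy.flp hO)
  obtain ⟨N₂, n2, e2⟩ := hk.elim (B4 hy hO) (B8 hy hO)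
  exact C hy hO n1 n2 e1 e2

end Cfsg.Agent.H1.G2
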